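import Cfsg.Agent.Lib.FT.Glue

/-!
# Irreducible rational representations of degree 23: first properties
-/

set_option autoImplicit false
set_option linter.unusedSectionVars false

namespace Cfsg.Lib.FT

open Module LinearMap Polynomial

variable {G : Type*} [Group G] [Finite G] {V : Type*} [AddCommGroup V] [Module ℚ V]
  [FiniteDimensional ℚ V] [DistribMulAction G V] [SMulCommClass G ℚ V]

variable (G V) in
/-- the hypotheses of Feit's theorem -/
structure Irr : Prop where
  dim : finrank ℚ V = 23
  faith : ∀ g : G, (∀ x : V, g • x = x) → g = 1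
  irr : ∀ W : Submodule ℚ V, (∀ g : G, ∀ w ∈ W, g • w ∈ W) → W = ⊥ ∨ W = ⊤
  idx : ∀ H : Subgroup G, H.index ≠ 23 ∧ H.index ≠ 24

variable (G) in
/-- invariant forms -/
def Inv (b : LinearMap.BilinForm ℚ V) : Prop := ∀ (g : G) (x y : V), b (g • x) (g • y) = b x y

theorem Inv.left {b : LinearMap.BilinForm ℚ V} (h : Inv G b) (g : G) (x y : V) :
    b (g • x) y = b x (g⁻¹ • y) := by rw [← h g x, smul_inv_smul]

theorem Inv.right {b : LinearMap.BilinForm ℚ V} (h : Inv G b) (g : G) (x y : V) :
    b x (g • y) = b (g⁻¹ • x) y := by rw [← h g _ y, smul_inv_smul]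

variable (V) in
/-- the action as a monoid homomorphism -/
abbrev act : G →* Module.End ℚ V := DistribMulAction.toModuleEnd ℚ V

theorem act_apply (g : G) (x : V) : act V g x = g • x := rfl

variable (G) in
/-- the stabiliser of `±x` -/
def pm (x : V) : Subgroup G where
  carrier := {h | h • x = x ∨ h • x = -x}
  one_mem' := Or.inl (one_smul _ _)
  mul_mem' := by
    rintro a c (ha | ha) (hc | hc) <;> simp [mul_smul, ha, hc]
  inv_mem' := by
    rintro a (ha | ha)
    · exact Or.inl (by rw [inv_smul_eq_iff, ha])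
    · exact Or.inr (by rw [inv_smul_eq_iff, smul_neg, ha, neg_neg])

theorem mem_pm {x : V} {h : G} : h ∈ pm G x ↔ h • x = x ∨ h • x = -x := Iff.rfl

theorem pm_eq_iff {x : V} {a c : G} :
    (a : G ⧸ pm G x) = c ↔ c • x = a • x ∨ c • x = -(a • x) := by
  rw [QuotientGroup.eq, mem_pm, mul_smul, inv_smul_eq_iff, inv_smul_eq_iff, smul_neg]

namespace Irr

variable (H : Irr G V)
include H

theorem nontrivial : Nontrivial V := Module.nontrivial_of_finrank_pos (R := ℚ) (by
  rw [H.dim]; norm_num)

theorem idx_ge {x : V} (hx : x ≠ 0) : 23 ≤ (pm G x).index := by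
  have := Fintype.ofFinite (G ⧸ pm G x)
  let f : G ⧸ pm G x → V := fun c => c.out • x
  have hf : ∀ g : G, g • x ∈ Submodule.span ℚ (Set.range f) := fun g => by
    have h1 : f g ∈ Submodule.span ℚ (Set.range f) := Submodule.subset_span ⟨_, rfl⟩
    rcases pm_eq_iff.1 (QuotientGroup.out_eq' (g : G ⧸ pm G x)) with e | e
    · rw [e]; exact h1
    · rw [e]; exact neg_mem h1
  rcases H.irr (Submodule.span ℚ (Set.range f)) (fun g w hw => by
    refine Submodule.span_induction ?_ (by simp) (fun a c _ _ ha hc => ?_) (fun a c _ hc => ?_) hw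
    · rintro _ ⟨c, rfl⟩; rw [← mul_smul]; exact hf _
    · rw [smul_add]; exact add_mem ha hc
    · rw [smul_comm]; exact Submodule.smul_mem _ _ hc) with e | e
  · have := hf 1
    rw [e, one_smul] at this
    exact absurd this hx
  · have := finrank_range_le_card (R := ℚ) f
    rw [Set.finrank, e, finrank_top, H.dim] at this
    rwa [Subgroup.index, Nat.card_eq_fintype_card]

theorem lines {x : V} (hx : x ≠ 0) {ι : Type*} [Finite ι] (hι : Nat.card ι ≤ 24) (s : ι → V)
    (hs : ∀ h : G, ∃ i, h • x = s i ∨ h • x = -s i) : False := by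
  choose i hi using hs
  have h1 : (pm G x).index ≤ Nat.card ι := by
    refine Nat.card_le_card_of_injective (fun c : G ⧸ pm G x => i c.out) fun c c' e => ?_
    rw [← QuotientGroup.out_eq' c, ← QuotientGroup.out_eq' c', pm_eq_iff]
    have a := hi c.out
    have a' := hi c'.out
    simp only at e
    rw [← e] at a'
    rcases a with a | a <;> rcases a' with a' | a' <;> simp [a, a']
  have h2 := H.idx_ge hx
  have h3 := H.idx (pm G x)
  omega

theorem orth {b : LinearMap.BilinForm ℚ V} (pd : PD b) (inv : Inv G b) {x : V} (hx : x ≠ 0)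
    (hs : ∀ h : G, h • x = x ∨ h • x = -x ∨ b (h • x) x = 0) : False := by
  have := Fintype.ofFinite (G ⧸ pm G x)
  have h1 : LinearIndependent ℚ fun c : G ⧸ pm G x => c.out • x := by
    refine BilinForm.linearIndependent_of_iIsOrtho (B := b) (fun c c' hc => ?_) fun c => ?_
    · show b _ _ = 0
      rw [inv.right, ← mul_smul]
      rcases hs (c'.out⁻¹ * c.out) with e | e | e
      · exact absurd (by
          rw [← QuotientGroup.out_eq' c', ← QuotientGroup.out_eq' c, eq_comm, QuotientGroup.eq]
          exact Or.inl e) hc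
      · exact absurd (by
          rw [← QuotientGroup.out_eq' c', ← QuotientGroup.out_eq' c, eq_comm, QuotientGroup.eq]
          exact Or.inr e) hc
      · exact e
    · rw [inv]; exact (pd.pos x hx).ne'
  have h2 := h1.fintype_card_le_finrank
  have h3 := H.idx_ge hx
  have h4 := H.idx (pm G x)
  rw [Subgroup.index, Nat.card_eq_fintype_card] at h3 h4
  rw [H.dim] at h2
  omega

theorem ker_cases (T : Module.End ℚ V) (hT : ∀ (g : G) x, T (g • x) = g • T x) :
    T = 0 ∨ Function.Injective T := by
  rcases H.irr (LinearMap.ker T) (fun g w hw => by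
    rw [LinearMap.mem_ker] at *; rw [hT, hw, smul_zero]) with e | e
  · exact Or.inr (LinearMap.ker_eq_bot.1 e)
  · exact Or.inl (LinearMap.ker_eq_top.1 e)

theorem not_pm : ¬ ∀ g : G, (∀ x : V, g • x = x) ∨ ∀ x : V, g • x = -x := fun h => by
  have := H.nontrivial
  obtain ⟨x, hx⟩ := exists_ne (0 : V)
  exact H.lines hx (ι := Unit) (by simp) (fun _ => x) fun g =>
    ⟨(), (h g).imp (fun e => e x) fun e => e x⟩

theorem schur {b : LinearMap.BilinForm ℚ V} (inv : Inv G b) (pd : PD b) (T : Module.End ℚ V)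
    (hT : ∀ (g : G) x, T (g • x) = g • T x) (hs : ∀ x y, b (T x) y = b x (T y)) :
    ∃ c : ℚ, ∀ x, T x = c • x := by
  have := H.nontrivial
  let F := Algebra.adjoin ℚ {T}
  have hF : ∀ φ : F, (∀ (g : G) x, φ.1 (g • x) = g • φ.1 x) ∧
      ∀ x y, b (φ.1 x) y = b x (φ.1 y) := by
    rintro ⟨φ, hφ⟩
    obtain ⟨p, rfl⟩ := Algebra.adjoin_mem_exists_aeval ℚ T hφ
    have hn : ∀ n : ℕ, (∀ (g : G) x, (T ^ n) (g • x) = g • (T ^ n) x) ∧
        ∀ x y, b ((T ^ n) x) y = b x ((T ^ n) y) := fun n => by
      induction n with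
      | zero => simp
      | succ n ih =>
        refine ⟨fun g x => by rw [pow_succ', Module.End.mul_apply, ih.1, hT]; rfl, fun x y => ?_⟩
        rw [pow_succ', Module.End.mul_apply, hs, ih.2, ← Module.End.mul_apply, ← pow_succ,
          pow_succ']
    simp only [aeval_eq_sum_range, LinearMap.sum_apply, LinearMap.smul_apply, map_sum, map_smul,
      Finset.smul_sum, (hn _).1, (hn _).2, smul_comm _ (coeff p _)]
    exact ⟨fun _ _ => trivial, fun _ _ => trivial⟩
  have hd : IsDomain F := by
    have : NoZeroDivisors F := ⟨fun {φ ψ} e => by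
      rcases H.ker_cases φ.1 (hF φ).1 with a | a
      · exact Or.inl (Subtype.ext a)
      · refine Or.inr (Subtype.ext (LinearMap.ext fun x => a ?_))
        have := LinearMap.congr_fun (congrArg Subtype.val e) x
        simpa using this⟩
    exact NoZeroDivisors.to_isDomain F
  have hfield : IsField F := isField_of_isIntegral_of_isField' (Field.toIsField ℚ)
  let := hfield.toField
  have hmul := Module.finrank_mul_finrank ℚ F V
  rw [H.dim] at hmul
  rcases (Nat.dvd_prime (by norm_num : Nat.Prime 23)).1 ⟨_, hmul.symm⟩ with e | e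
  · have := Subalgebra.eq_bot_of_finrank_one e
    have hm : T ∈ F := Algebra.self_mem_adjoin_singleton ℚ T
    rw [this, Algebra.mem_bot] at hm
    obtain ⟨c, hc⟩ := hm
    exact ⟨c, fun x => by rw [← hc]; rfl⟩
  · exfalso
    rw [e] at hmul
    have h1 : finrank F V = 1 := by omega
    obtain ⟨x0, hx0, hall⟩ := finrank_eq_one_iff'.1 h1
    have hg : ∀ g : G, ∃ φ : F, ∀ x, g • x = φ.1 x := fun g => by
      obtain ⟨φ, hφ⟩ := hall (g • x0)
      refine ⟨φ, fun x => ?_⟩
      obtain ⟨ψ, rfl⟩ := hall x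
      show g • ψ.1 x0 = (φ * ψ).1 x0
      rw [← (hF ψ).1, ← hφ, mul_comm]; rfl
    refine H.not_pm fun g => ?_
    obtain ⟨φ, hφ⟩ := hg g
    have h2 : (φ - 1) * (φ + 1) = 0 := by
      refine Subtype.ext (LinearMap.ext fun x => ?_)
      have : φ.1 (φ.1 x) = x := by
        have h3 : ∀ y, b (φ.1 (φ.1 x) - x) y = 0 := fun y => by
          rw [map_sub, LinearMap.sub_apply, (hF φ).2, ← hφ, ← hφ, inv, sub_self]
        exact sub_eq_zero.1 (pd.eq_zero (h3 _))
      simp [this, add_comm x]
    rcases mul_eq_zero.1 h2 with a | a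
    · exact Or.inl fun x => by rw [hφ, sub_eq_zero.1 a]; rfl
    · exact Or.inr fun x => by rw [hφ, eq_neg_of_add_eq_zero_left a]; rfl

theorem design [Fintype G] {b : LinearMap.BilinForm ℚ V} (inv : Inv G b) (pd : PD b) (u x : V) :
    ∑ h : G, b x (h • u) • h • u = ((Nat.card G : ℚ) * b u u / 23) • x := by
  let T : Module.End ℚ V := ∑ h : G, (b (h • u)).smulRight (h • u)
  have hT : ∀ x, T x = ∑ h : G, b x (h • u) • h • u := fun x => by
    simp only [T, LinearMap.sum_apply, LinearMap.smulRight_apply, pd.symm x]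
  obtain ⟨c, hc⟩ := H.schur inv pd T (fun g x => by
    rw [hT, hT, Finset.smul_sum, ← Equiv.sum_comp (Equiv.mulLeft g)]
    refine Finset.sum_congr rfl fun h _ => ?_
    simp only [Equiv.coe_mulLeft, mul_smul, inv g, smul_comm g]) (fun x y => by
    simp only [hT, map_sum, LinearMap.sum_apply, map_smul, LinearMap.smul_apply, smul_eq_mul,
      pd.symm y]
    exact Finset.sum_congr rfl fun h _ => mul_comm _ _)
  have h1 : T = c • LinearMap.id := LinearMap.ext hc
  have h2 := congrArg (LinearMap.trace ℚ V) h1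
  simp only [T, map_sum, trace_smulRight, inv _, map_smul, trace_id, H.dim, Finset.sum_const,
    Finset.card_univ, nsmul_eq_mul, smul_eq_mul] at h2
  rw [← hT, hc, Nat.card_eq_fintype_card, h2]
  congr 1
  push_cast; ring

end Irr

end Cfsg.Lib.FT
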