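import Cfsg.Agent.Lib.FT.Triv

/-!
# The structure of the lattice relative to an element of order 23
-/

set_option autoImplicit false
set_option linter.unusedSectionVars false

namespace Cfsg.Lib.FT

open Module LinearMap Finset

section perp

variable {V : Type*} [AddCommGroup V] [Module ℚ V] [FiniteDimensional ℚ V]

/-- the part of a lattice in a subspace -/
def sub (L : Submodule ℤ V) (W : Submodule ℚ V) : Submodule ℤ W :=
  L.comap (W.subtype.restrictScalars ℤ)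

theorem mem_sub {L : Submodule ℤ V} {W : Submodule ℚ V} {y : W} : y ∈ sub L W ↔ (y : V) ∈ L :=
  Iff.rfl

theorem sub_lat (L : Submodule ℤ V) [L.IsLattice ℚ] (W : Submodule ℚ V) :
    (sub L W).IsLattice ℚ := by
  refine ⟨Submodule.fg_of_fg_map_injective (W.subtype.restrictScalars ℤ) Subtype.val_injective
    (Submodule.FG.of_le (Submodule.IsLattice.fg (A := ℚ) (M := L)) (Submodule.map_comap_le _ _)),
    eq_top_iff.2 fun w _ => ?_⟩
  obtain ⟨n, hn, h⟩ := exists_mul_mem L (w : V)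
  have : w = (n : ℚ)⁻¹ • (n : ℤ) • w := by
    rw [← Int.cast_smul_eq_zsmul ℚ, smul_smul]; simp [hn]
  rw [this]
  exact Submodule.smul_mem _ _ (Submodule.subset_span h)

theorem PD.restrict {b : LinearMap.BilinForm ℚ V} (h : PD b) (W : Submodule ℚ V) :
    PD (b.restrict W) :=
  ⟨fun x y => h.symm x y, fun x hx => h.pos x fun e => hx (Subtype.ext e)⟩

theorem finrank_perp {b : LinearMap.BilinForm ℚ V} {v : V} (hv : b v v ≠ 0) :
    finrank ℚ (ker (b v)) + 1 = finrank ℚ V :=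
  Module.Dual.finrank_ker_add_one_of_ne_zero fun e => hv (by rw [e]; rfl)

end perp

variable {G : Type*} [Group G] [Finite G] {V : Type*} [AddCommGroup V] [Module ℚ V]
  [FiniteDimensional ℚ V] [DistribMulAction G V] [SMulCommClass G ℚ V]

theorem Gd.norm_nrm {b : LinearMap.BilinForm ℚ V} {L : Submodule ℤ V} (h : Gd G b L)
    {τ : ZMod 23 → G} (T : Tau τ) {x : V} (hx : x ∈ L) :
    ∃ k : ℤ, b x x = b x (nrm τ x) + 2 * k := by
  obtain ⟨k, hk⟩ := mem_ZZ.1 (h.ZZ hx (per_mem (τ := τ) h.stab hx))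
  refine ⟨-k, ?_⟩
  rw [T.b_per h.inv, h.pd.symm (per τ x), hk]; push_cast; ring

/-- the structure of the lattice -/
structure Core (τ : ZMod 23 → G) (b : LinearMap.BilinForm ℚ V) (L : Submodule ℤ V) (v x0 : V)
    (d : ℤ) : Prop extends Gd G b L where
  tau : Tau τ
  vL : v ∈ L
  vfix : ∀ i, τ i • v = v
  nv : b v v = 23 * d
  dpos : 0 < d
  ex : ∀ x ∈ L, ∃ a : ℤ, b v x = a * d
  x0L : x0 ∈ L
  x0v : b v x0 = d
  nrm_eq : ∀ x, nrm τ x = (b v x / d) • v
  nd : ¬ (23 : ℤ) ∣ d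
  gen : ∀ y, b v y = 0 → (∀ x ∈ L, b v x = 0 → b y x ∈ ZZ) →
    ∃ j : ℤ, y - j • (x0 - (1 / 23 : ℚ) • v) ∈ L

theorem Mn.core (H : Irr G V) {b : LinearMap.BilinForm ℚ V} {L : Submodule ℤ V} (h : Mn G b L) :
    ∃ (τ : ZMod 23 → G) (v x0 : V) (d : ℤ), Core τ b L v x0 d ∧ ¬ (4 : ℤ) ∣ d ∧ ¬ (9 : ℤ) ∣ d := by
  classical
  have := h.lat
  obtain ⟨τ, T⟩ := exists_tau (h.dvd_card H)
  obtain ⟨v1, hv1, hf1, hall⟩ := H.exists_fixed (T.pow23 1) (T.ne 1 (by decide))
  have hex : ∃ n : ℕ, ∃ v ∈ L, v ≠ 0 ∧ τ 1 • v = v ∧ b v v = n := by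
    obtain ⟨n, hn, h1⟩ := exists_mul_mem L v1
    obtain ⟨k, hk⟩ := mem_ZZ.1 (h.ZZ h1 h1)
    have h0 : (0 : ℚ) ≤ k := hk ▸ h.pd.nonneg _
    lift k to ℕ using (by exact_mod_cast h0)
    refine ⟨k, _, h1, ?_, by rw [smul_comm, hf1], by exact_mod_cast hk⟩
    rw [← Int.cast_smul_eq_zsmul ℚ]
    exact smul_ne_zero (by exact_mod_cast hn) hv1
  obtain ⟨v, vL, v0, vf, nv⟩ := Nat.find_spec hex
  have hpos := h.pd.pos v v0
  have prim : ∀ c : ℚ, c • v ∈ L → c ∈ ZZ := fun c hc => by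
    by_contra hn
    have h1 : Int.fract c • v ∈ L := by
      rw [Int.fract, sub_smul, Int.cast_smul_eq_zsmul]; exact sub_mem hc (L.smul_mem _ vL)
    have h2 : Int.fract c ≠ 0 := fun e => hn (mem_ZZ.2 ⟨⌊c⌋, sub_eq_zero.1 e⟩)
    obtain ⟨k, hk⟩ := mem_ZZ.1 (h.ZZ h1 h1)
    have h0 : (0 : ℚ) ≤ k := hk ▸ h.pd.nonneg _
    lift k to ℕ using (by exact_mod_cast h0)
    have h3 := Nat.find_min' hex ⟨_, h1, smul_ne_zero h2 v0, by rw [smul_comm, vf],
      by exact_mod_cast hk⟩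
    have h4 : (Nat.find hex : ℚ) ≤ k := by exact_mod_cast h3
    simp only [map_smul, LinearMap.smul_apply, smul_eq_mul, Int.cast_natCast] at hk
    rw [← nv, ← hk] at h4
    have a1 := Int.fract_nonneg c
    have a2 := Int.fract_lt_one c
    have : Int.fract c * Int.fract c < 1 := by nlinarith
    nlinarith
  have hall' : ∀ x : V, τ 1 • x = x → ∃ c : ℚ, x = c • v := fun x hx => by
    obtain ⟨c, hc⟩ := hall x hx
    obtain ⟨c', hc'⟩ := hall v vf
    have : c' ≠ 0 := by rintro rfl; exact v0 (by rw [hc', zero_smul])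
    exact ⟨c / c', by rw [hc', smul_smul, div_mul_cancel₀ _ this, hc]⟩
  have vfix : ∀ i, τ i • v = v := fun i => by
    have := T.all_of_one (L := ⊥) (x := v) (by simp) (by simp [vf]) i
    exact sub_eq_zero.1 this
  have hnrm : ∀ x, nrm τ x = (23 * b v x / b v v) • v := fun x => by
    obtain ⟨c, hc⟩ := hall' _ (T.smul_nrm 1 x)
    have := T.b_nrm h.inv v x
    rw [hc, nrm] at this
    simp only [vfix, sum_const, card_univ, ZMod.card, map_nsmul, LinearMap.smul_apply, map_smul,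
      smul_eq_mul, nsmul_eq_mul] at this
    rw [hc]; congr 1; field_simp; push_cast at this; linarith
  let I : AddSubgroup ℤ :=
    { carrier := {k | ∃ x ∈ L, b v x = k}
      zero_mem' := ⟨0, zero_mem _, by simp⟩
      add_mem' := by
        rintro _ _ ⟨x, hx, e⟩ ⟨y, hy, e'⟩
        exact ⟨x + y, add_mem hx hy, by rw [map_add, e, e']; simp⟩
      neg_mem' := by
        rintro _ ⟨x, hx, e⟩
        exact ⟨-x, neg_mem hx, by rw [map_neg, e]; simp⟩ }
  obtain ⟨e0, he0⟩ := Int.subgroup_cyclic I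
  obtain ⟨e, epos, ⟨x0, x0L, x0v⟩, ex⟩ : ∃ e : ℤ, 0 ≤ e ∧ e ∈ I ∧ ∀ x ∈ L, ∃ a : ℤ,
      b v x = a * e := by
    have h1 : e0 ∈ I := he0 ▸ AddSubgroup.mem_closure_singleton_self e0
    have h2 : ∀ x ∈ L, ∃ a : ℤ, b v x = a * e0 := fun x hx => by
      obtain ⟨k, hk⟩ := mem_ZZ.1 (h.ZZ vL hx)
      have : k ∈ AddSubgroup.closure {e0} := he0 ▸ ⟨x, hx, hk⟩
      obtain ⟨a, rfl⟩ := AddSubgroup.mem_closure_singleton.1 this
      exact ⟨a, by rw [hk]; simp⟩
    rcases le_total 0 e0 with a | a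
    · exact ⟨e0, a, h1, h2⟩
    · refine ⟨-e0, by omega, neg_mem h1, fun x hx => ?_⟩
      obtain ⟨a, ha⟩ := h2 x hx
      exact ⟨-a, by rw [ha]; simp⟩
  obtain ⟨s, hs⟩ := ex v vL
  have e0' : (e : ℚ) ≠ 0 := by rintro a; rw [a, mul_zero] at hs; exact hpos.ne' hs
  have epos' : (0 : ℚ) < e := lt_of_le_of_ne (by exact_mod_cast epos) e0'.symm
  have spos : (0 : ℚ) < s := by rw [hs] at hpos; exact (mul_pos_iff_of_pos_right epos').1 hpos
  obtain ⟨s', hs'⟩ := mem_ZZ.1 (prim _ (hnrm x0 ▸ nrm_mem h.stab x0L))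
  have hss : s * s' = 23 := by
    rw [x0v, hs] at hs'
    have : (s : ℚ) * s' = 23 := by rw [← hs']; field_simp
    exact_mod_cast this
  have h23 : ∀ y ∈ dual b L, nrm τ y - (23 : ℤ) • y ∈ L := fun y hy =>
    nrm_sub_mem (h.triv H T hy)
  have hL23 : ∀ y ∈ dual b L, (23 : ℤ) • y ∈ L → y ∈ L := fun y hy h1 =>
    h.Lq_big H (q := 23) (by norm_num) le_rfl ⟨hy, h1⟩
  have hs23 : s = 23 := by
    have spos' : 0 < s := by exact_mod_cast spos
    have : s ∣ 23 := ⟨s', hss.symm⟩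
    have h1 := Int.le_of_dvd (by norm_num) this
    by_contra hc
    have h1 : s = 1 := by interval_cases s <;> omega
    subst h1
    have eu : EU (b.restrict (ker (b v))) (sub L (ker (b v))) := by
      refine ⟨h.pd.restrict _, sub_lat _ _, fun x hx => ?_, fun y hy => ?_⟩
      · obtain ⟨k, hk⟩ := h.norm_nrm T (mem_sub.1 hx)
        rw [hnrm, mem_ker.1 x.2] at hk
        exact ⟨k, by simpa using hk⟩
      · have hy' : (y : V) ∈ dual b L := mem_dual.2 fun x hx => by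
          obtain ⟨a, ha⟩ := ex x hx
          have := mem_dual.1 hy ⟨x - a • v, by simp [ha, hs]⟩ (sub_mem hx (L.smul_mem _ vL))
          simpa [h.pd.symm y v, mem_ker.1 y.2] using this
        have := h23 y hy'
        rw [hnrm, mem_ker.1 y.2] at this
        exact hL23 y hy' (by simpa using this)
    have := finrank_perp hpos.ne'
    rw [H.dim] at this
    have := eu.four_dvd (m := 11) (by omega)
    norm_num at this
  subst hs23
  have hdual : ∀ c : ℚ, c * e ∈ ZZ → c • v ∈ dual b L := fun c hc => mem_dual.2 fun x hx => by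
    obtain ⟨a, ha⟩ := ex x hx
    rw [map_smul, LinearMap.smul_apply, ha, smul_eq_mul, mul_left_comm]
    exact mul_mem (intCast_mem _ _) hc
  have hsq : ∀ p : ℕ, 1 < p → ¬ (p * p : ℤ) ∣ e := by
    rintro p hp ⟨l, rfl⟩
    have hp0 : (p : ℚ) ≠ 0 := by positivity
    have := h.sqf p (hdual (1 / (p * p)) (mem_ZZ.2 ⟨l, by push_cast; field_simp⟩)) (by
      rw [← Int.cast_smul_eq_zsmul ℚ, smul_smul]
      convert vL using 1
      push_cast; field_simp; simp)
    rw [← Int.cast_smul_eq_zsmul ℚ, smul_smul] at this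
    obtain ⟨k, hk⟩ := mem_ZZ.1 (prim _ this)
    have : (p : ℚ) * k = 1 := by rw [← hk]; push_cast; field_simp
    have : (p : ℤ) * k = 1 := by exact_mod_cast this
    have := Int.eq_one_of_mul_eq_one_right (by positivity) this
    omega
  have nd : ¬ (23 : ℤ) ∣ e := by
    rintro ⟨l, rfl⟩
    have := hL23 _ (hdual (1 / 23) (mem_ZZ.2 ⟨l, by push_cast; field_simp⟩)) (by
      rw [← Int.cast_smul_eq_zsmul ℚ, smul_smul]; simpa using vL)
    obtain ⟨k, hk⟩ := mem_ZZ.1 (prim _ this)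
    have : (23 : ℚ) * k = 1 := by rw [← hk]; norm_num
    have : (23 : ℤ) * k = 1 := by exact_mod_cast this
    omega
  have hnrm' : ∀ x, nrm τ x = (b v x / e) • v := fun x => by
    rw [hnrm, hs]; congr 1; push_cast; field_simp
  refine ⟨τ, v, x0, e, ⟨h.toGd, T, vL, vfix, by simpa using hs, by exact_mod_cast epos', ex, x0L,
    x0v, hnrm', nd, fun y hy hy' => ?_⟩, hsq 2 (by norm_num), hsq 3 (by norm_num)⟩
  have h1 : y - (b y x0 / e) • v ∈ dual b L := mem_dual.2 fun x hx => by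
    obtain ⟨a, ha⟩ := ex x hx
    have := hy' (x - a • x0) (sub_mem hx (L.smul_mem _ x0L)) (by simp [ha, x0v])
    convert this using 1
    simp [ha]; field_simp
  obtain ⟨k, hk⟩ := mem_ZZ.1 (mem_dual.1 h1 v vL)
  obtain ⟨u, w, huw⟩ := coprime23 nd
  have h2 : y - (b y x0 / e) • v - ((w * k : ℤ) / e : ℚ) • v ∈ L := by
    refine hL23 _ (sub_mem h1 (hdual _ (mem_ZZ.2 ⟨w * k, by field_simp⟩))) ?_
    have := sub_mem (L.smul_mem (u * k) vL) (h23 _ h1)
    convert this using 1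
    rw [hnrm', h.pd.symm v, hk]
    simp only [← Int.cast_smul_eq_zsmul ℚ]
    have : (u : ℚ) * e + w * 23 = 1 := by exact_mod_cast huw
    have e1 : (k : ℚ) / e = u * k + 23 * (w * k / e) := by
      field_simp; linear_combination (-k : ℚ) * this
    rw [e1]
    push_cast
    module
  obtain ⟨a, ha⟩ := ex _ h2
  refine ⟨a, ?_⟩
  convert sub_mem h2 (L.smul_mem a x0L) using 1
  simp only [map_sub, map_smul, hy, smul_eq_mul, hs] at ha
  have e2 : (a : ℚ) = -23 * (b y x0 / e + (w * k : ℤ) / e) := by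
    push_cast at ha ⊢
    field_simp at ha ⊢
    linarith
  simp only [← Int.cast_smul_eq_zsmul ℚ, e2]
  module

namespace Core

variable {τ : ZMod 23 → G} {b : LinearMap.BilinForm ℚ V} {L : Submodule ℤ V} {v x0 : V} {d : ℤ}
  (h : Core τ b L v x0 d)
include h

theorem d0 : (d : ℚ) ≠ 0 := by exact_mod_cast h.dpos.ne'

theorem twist {j : ZMod 23} (hj : j ≠ 0) : Core (fun i => τ (j * i)) b L v x0 d :=
  have : Fact (Nat.Prime 23) := ⟨by norm_num⟩
  { h with
    tau := h.tau.twist hj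
    vfix := fun _ => h.vfix _
    nrm_eq := fun x => by
      rw [← h.nrm_eq]
      exact Equiv.sum_comp (Equiv.mulLeft₀ j hj) fun i => τ i • x }

theorem bv (i : ZMod 23) (x : V) : b v (τ i • x) = b v x := by
  rw [← h.vfix i, h.inv, h.vfix]

theorem norm_mod {x : V} (hx : x ∈ L) {a : ℤ} (ha : b v x = a * d) :
    ∃ k : ℤ, b x x = a ^ 2 * d + 2 * k := by
  obtain ⟨k, hk⟩ := h.norm_nrm h.tau hx
  refine ⟨k, ?_⟩
  have := h.d0
  rw [hk, h.nrm_eq, map_smul, h.pd.symm x v, ha, smul_eq_mul]; field_simp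

theorem even0 {x : V} (hx : x ∈ L) (ha : b v x = 0) : ∃ k : ℤ, b x x = 2 * k := by
  simpa using h.norm_mod hx (a := 0) (by simpa using ha)

theorem even_sub (hd : ¬ (2 : ℤ) ∣ d) : ∃ L' ≤ L, Core τ b L' ((2 : ℤ) • v) ((2 : ℤ) • x0) (4 * d) ∧
    ∀ x ∈ L', ∃ k : ℤ, b x x = 2 * k := by
  have := h.lat
  let L' : Submodule ℤ V :=
    { carrier := {x | x ∈ L ∧ ∃ k : ℤ, b x x = 2 * k}
      zero_mem' := ⟨zero_mem _, 0, by simp⟩
      add_mem' := by
        rintro x y ⟨hx, k, hk⟩ ⟨hy, l, hl⟩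
        obtain ⟨m, hm⟩ := mem_ZZ.1 (h.ZZ hx hy)
        exact ⟨add_mem hx hy, k + l + m, by rw [h.pd.norm_add, hk, hl, hm]; push_cast; ring⟩
      smul_mem' := by
        rintro c x ⟨hx, k, hk⟩
        exact ⟨L.smul_mem _ hx, c * c * k, by simp [hk]; ring⟩ }
  have h2 : ∀ x ∈ L, (2 : ℤ) • x ∈ L' := fun x hx => by
    obtain ⟨m, hm⟩ := mem_ZZ.1 (h.ZZ hx hx)
    exact ⟨L.smul_mem _ hx, 2 * m, by simp [hm]⟩
  have hle : L' ≤ L := fun x hx => hx.1
  have := h.d0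
  refine ⟨L', hle, ⟨⟨h.pd, h.inv, ⟨Submodule.FG.of_le h.lat.fg hle, eq_top_iff.2 ?_⟩,
    fun g x hx => ⟨h.stab _ _ hx.1, by rw [h.inv]; exact hx.2⟩,
    fun x hx => dual_anti hle (h.int hx.1)⟩, h.tau, h2 _ h.vL, fun i => by rw [smul_comm, h.vfix],
    by simp [h.nv]; ring, by have := h.dpos; omega, ?_, h2 _ h.x0L, by simp [h.x0v]; ring,
    fun x => ?_, fun e => h.nd ((prime23.dvd_or_dvd e).resolve_left (by norm_num)), ?_⟩,
    fun x hx => hx.2⟩
  · rw [← h.lat.span_eq_top, Submodule.span_le]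
    intro x hx
    have : x = (1 / 2 : ℚ) • (2 : ℤ) • x := by
      rw [← Int.cast_smul_eq_zsmul ℚ, smul_smul]; simp
    rw [this]
    exact Submodule.smul_mem _ _ (Submodule.subset_span (h2 x hx))
  · rintro x ⟨hx, k, hk⟩
    obtain ⟨a, ha⟩ := h.ex x hx
    obtain ⟨l, hl⟩ := h.norm_mod hx ha
    have e : 2 * k = a ^ 2 * d + 2 * l := by
      rw [hk] at hl; exact_mod_cast hl
    have : (2 : ℤ) ∣ a := Int.prime_two.dvd_of_dvd_pow
      ((Int.prime_two.dvd_or_dvd (⟨k - l, by linarith⟩ : (2 : ℤ) ∣ a ^ 2 * d)).resolve_right hd)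
    obtain ⟨a, rfl⟩ := this
    exact ⟨a, by simp [ha]; ring⟩
  · rw [h.nrm_eq, ← Int.cast_smul_eq_zsmul ℚ, smul_smul]
    congr 1
    simp; field_simp; norm_num
  · intro y hy hy'
    have hy0 : b v y = 0 := by simpa using hy
    obtain ⟨j, hj⟩ := h.gen y hy0 fun x hx e => hy' x ⟨hx, h.even0 hx e⟩ (by simp [e])
    refine ⟨12 * j, ?_⟩
    have h3 : y - (12 * j) • ((2 : ℤ) • x0 - (1 / 23 : ℚ) • (2 : ℤ) • v) ∈ L := by
      convert sub_mem hj (L.smul_mem j (sub_mem (L.smul_mem 23 h.x0L) h.vL)) using 1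
      simp only [← Int.cast_smul_eq_zsmul ℚ]
      push_cast
      module
    exact ⟨h3, h.even0 h3 (by simp [hy0, h.x0v, h.nv]; ring_nf; simp)⟩

end Core

end Cfsg.Lib.FT
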