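import Cfsg.Agent.Lib.FT.Ext

/-!
# Embedding the lattice into the Leech lattice
-/

set_option autoImplicit false
set_option linter.unusedSectionVars false

namespace Cfsg.Lib.FT

open Module LinearMap Finset Cfsg.Lib.Leech MulAction

/-- vectors of the dual of the binary lattice -/
def gam (s t : ℤ) : Fin 2 → ℚ := ![(6 * s - t) / 23, (-s + 4 * t) / 23]

/-- vectors of the binary lattice -/
def iv (s t : ℤ) : Fin 2 → ℚ := ![s, t]

theorem iv_mem (s t : ℤ) : iv s t ∈ zl 2 := fun i => by fin_cases i <;> simp [iv]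

theorem gam_gam (s t s' t' : ℤ) :
    mf A2 (gam s t) (gam s' t') = (6 * s * s' - s * t' - t * s' + 4 * t * t') / 23 := by
  simp [b2_apply, gam]; ring

theorem gam_iv (s t s' t' : ℤ) : mf A2 (gam s t) (iv s' t') = s * s' + t * t' := by
  simp [b2_apply, gam, iv]; ring

theorem iv_iv (s t s' t' : ℤ) :
    mf A2 (iv s t) (iv s' t') = 4 * s * s' + s * t' + t * s' + 6 * t * t' := by
  simp [b2_apply, iv]

theorem gam0 : (fun i => ((![-1, 4] : Fin 2 → ℤ) i : ℚ) / 23) = gam 0 1 := by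
  funext i; fin_cases i <;> simp [gam]

theorem smul_gam (a s t : ℤ) : a • gam s t = gam (a * s) (a * t) := by
  funext i; fin_cases i <;> simp [gam] <;> ring

theorem gam_mem {s t i : ℤ} (h : (23 : ℤ) ∣ t - 6 * s - i) : gam s t - i • gam 0 1 ∈ zl 2 := by
  obtain ⟨k, hk⟩ := h
  have : (t : ℚ) - 6 * s - i = 23 * k := by exact_mod_cast hk
  intro l
  fin_cases l
  · exact mem_ZZ.2 ⟨-k, by simp [gam]; linarith⟩
  · exact mem_ZZ.2 ⟨s + 4 * k, by simp [gam]; linarith⟩

theorem eq_gam {γ : Fin 2 → ℚ} {i : ℤ} (h : γ - i • gam 0 1 ∈ zl 2) :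
    ∃ s t, γ = gam s t ∧ (23 : ℤ) ∣ t - 6 * s - i := by
  obtain ⟨p, hp⟩ := mem_ZZ.1 (h 0)
  obtain ⟨q, hq⟩ := mem_ZZ.1 (h 1)
  refine ⟨4 * p + q, p + 6 * q + i, funext fun l => ?_, -p, by ring⟩
  simp [gam] at hp hq
  fin_cases l <;> simp [gam] <;> linarith

theorem gam_eq {γ : Fin 2 → ℚ} {s t : ℤ} (h1 : mf A2 γ (iv 1 0) = s) (h2 : mf A2 γ (iv 0 1) = t) :
    γ = gam s t := by
  simp [b2_apply, iv] at h1 h2
  funext l
  fin_cases l <;> simp [gam] <;> linarith

theorem table (i : ℤ) : ∃ s t q : ℤ, (23 : ℤ) ∣ t - 6 * s - i ∧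
    6 * s * s - s * t - t * s + 4 * t * t = q ∧ (q = 0 ∨ q = 4 ∨ q = 6 ∨ q = 8 ∨ q = 12 ∨ q = 16 ∨
      q = 18 ∨ q = 24 ∨ q = 26 ∨ q = 32 ∨ q = 36 ∨ q = 48) := by
  have key : ∀ r ∈ Finset.Icc (0 : ℤ) 22, ∃ s ∈ Finset.Icc (-3 : ℤ) 3, ∃ t ∈ Finset.Icc (-3 : ℤ) 3,
      (23 : ℤ) ∣ t - 6 * s - r ∧ 6 * s * s - s * t - t * s + 4 * t * t ∈
        ([0, 4, 6, 8, 12, 16, 18, 24, 26, 32, 36, 48] : List ℤ) := by decide +kernel
  obtain ⟨s, -, t, -, h1, h2⟩ := key (i % 23) (Finset.mem_Icc.2 (by omega))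
  exact ⟨s, t, _, by omega, rfl, by simpa using h2⟩

/-- the standard vector of type 2 -/
def U0 : leechLattice := ⟨fun p => if p = none then -3 else 1, mem_leech_iff.2
  ⟨1, fun p => if p = none then -2 else 0, by decide, by
    rw [show red (fun p => if p = none then -2 else 0) = 0 by decide]; exact zero_mem _,
    by decide⟩⟩

/-- the standard vector of type 3 -/
def W0 : leechLattice := U0 + e8 none

theorem U0_apply (p : GolayPt) : (U0 : GolayPt → ℤ) p = if p = none then -3 else 1 := rfl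

theorem W0_apply (p : GolayPt) : (W0 : GolayPt → ℤ) p = if p = none then 5 else 1 := by
  revert p; decide

theorem nm_U0 : nm(U0) = 32 := by decide

theorem nm_W0 : nm(W0) = 48 := by unfold sqNorm; simp only [W0_apply]; decide

theorem dt_W0_U0 : dt(W0, U0) = 8 := by unfold dotInt; simp only [W0_apply]; decide

/-- a minimal vector orthogonal to both -/
def l1 : leechLattice :=
  ⟨fun p => 4 * if p = some 0 then 1 else if p = some 1 then -1 else 0, four_mul_mem (by decide)⟩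

/-- another minimal vector -/
def l2 : leechLattice :=
  ⟨fun p => 4 * if p = none then 1 else if p = some 0 then -1 else 0, four_mul_mem (by decide)⟩

theorem l1_spec : nm(l1) = 32 ∧ dt(l1, U0) = 0 ∧ dt(l1, W0) = 0 := by
  unfold dotInt; simp only [W0_apply]; decide

theorem l2_spec : nm(l2) = 32 ∧ dt(l2, U0) = -16 ∧ dt(l2, W0) = 16 := by
  unfold dotInt; simp only [W0_apply]; decide

variable {G : Type*} [Group G] [Finite G] {V : Type*} [AddCommGroup V] [Module ℚ V]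
  [FiniteDimensional ℚ V] [DistribMulAction G V] [SMulCommClass G ℚ V]

namespace Core

variable {τ : ZMod 23 → G} {b : LinearMap.BilinForm ℚ V} {L : Submodule ℤ V} {v x0 : V} {D : ℤ}
  (h : Core τ b L v x0 D)

/-- the projection to the orthogonal complement of the fixed vector -/
noncomputable def pr : V →ₗ[ℚ] ker (b v) :=
  LinearMap.codRestrict _ (LinearMap.id - (b v).smulRight ((1 / (23 * D) : ℚ) • v)) fun x => by
    have := h.d0
    simp [h.nv]; field_simp; simp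

theorem pr_coe (x : V) : (h.pr x : V) = x - (b v x / (23 * D)) • v := by
  simp [pr, smul_smul, div_eq_mul_inv]

theorem pr_coe' {x : V} {a : ℚ} (ha : b v x = a * D) : (h.pr x : V) = x - (a / 23) • v := by
  have := h.d0
  rw [pr_coe, ha]; congr 2; field_simp

theorem pr_x0 : (h.pr x0 : V) = x0 - (1 / 23 : ℚ) • v := h.pr_coe' (by simpa using h.x0v)

theorem b_pr (x y : V) : b (h.pr x) (h.pr y) = b x y - b v x * b v y / (23 * D) := by
  have := h.d0
  simp [pr_coe, h.nv, h.pd.symm x v]; field_simp; ring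

theorem d23 : ∃ k, D23 (b.restrict (ker (b v))) (sub L (ker (b v))) (h.pr x0) k := by
  have := h.lat
  refine D23.of_notMem (h.pd.restrict _) (sub_lat _ _) (fun x hx => h.even0 (mem_sub.1 hx) x.2)
    (mem_dual.2 fun y hy => ?_) ?_ (fun y hy => ?_) fun e => ?_
  · have := h.ZZ h.x0L (mem_sub.1 hy)
    simpa [h.pr_x0, mem_ker.1 y.2] using this
  · rw [mem_sub, Submodule.coe_smul_of_tower, h.pr_x0, smul_sub, ← Int.cast_smul_eq_zsmul ℚ 23
      ((1 / 23 : ℚ) • v), smul_smul]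
    exact sub_mem (L.smul_mem _ h.x0L) (by simpa using h.vL)
  · obtain ⟨j, hj⟩ := h.gen y y.2 fun x hx e => mem_dual.1 hy ⟨x, e⟩ hx
    exact ⟨j, by rwa [mem_sub, Submodule.coe_sub, Submodule.coe_smul_of_tower, h.pr_x0]⟩
  · rw [mem_sub, h.pr_x0] at e
    have := sub_mem h.x0L e
    rw [sub_sub_cancel] at this
    obtain ⟨k, hk⟩ := mem_ZZ.1 (h.ZZ this h.x0L)
    simp only [map_smul, LinearMap.smul_apply, h.x0v, smul_eq_mul] at hk
    exact h.nd ⟨k, by exact_mod_cast (by linarith : (D : ℚ) = 23 * k)⟩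

theorem pr_sub {x : V} (hx : x ∈ L) {a : ℤ} (ha : b v x = a * D) :
    h.pr x - a • h.pr x0 ∈ sub L (ker (b v)) := by
  rw [mem_sub, Submodule.coe_sub, Submodule.coe_smul_of_tower, h.pr_x0, h.pr_coe' ha]
  convert sub_mem hx (L.smul_mem a h.x0L) using 1
  simp only [← Int.cast_smul_eq_zsmul ℚ]
  module

theorem of_pr_sub {y : ker (b v)} {a : ℤ} (hy : y - a • h.pr x0 ∈ sub L (ker (b v))) :
    (y : V) + (a / 23 : ℚ) • v ∈ L := by
  rw [mem_sub, Submodule.coe_sub, Submodule.coe_smul_of_tower, h.pr_x0] at hy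
  convert add_mem hy (L.smul_mem a h.x0L) using 1
  simp only [← Int.cast_smul_eq_zsmul ℚ]
  module

include h in
theorem min_proj (hr : ∀ x ∈ L, b x x ≠ 2) {y : V} (hv : b v y = 0) {c : ℚ} (hy : y + c • v ∈ L)
    (h0 : y ≠ 0) : 44 / 23 ≤ b y y := by
  have : Fact (Nat.Prime 23) := ⟨by norm_num⟩
  have hN : nrm τ y = 0 := by rw [h.nrm_eq, hv]; simp
  have h1 : ∀ i ∈ univ.erase (0 : ZMod 23), b y (τ i • y) ≤ b y y - 2 := fun i hi => by
    have a1 : y - τ i • y ∈ L := by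
      convert sub_mem hy (h.stab (τ i) _ hy) using 1
      rw [smul_add, smul_comm, h.vfix]; abel
    have a2 : y - τ i • y ≠ 0 := fun e => by
      have hf := sub_eq_zero.1 e
      have h1 : ∀ k, τ k • y = y := fun k => by
        have : ∀ n : ℕ, τ i ^ n • y = y := fun n => by
          induction n with
          | zero => simp
          | succ n ih => rw [pow_succ', mul_smul, ih, ← hf]
        have := this (k / i).val
        rwa [h.tau.pow, ZMod.natCast_zmod_val, div_mul_cancel₀ _ (ne_of_mem_erase hi)] at this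
      simp only [nrm, h1, sum_const, card_univ, ZMod.card, ← Nat.cast_smul_eq_nsmul ℚ] at hN
      exact h0 ((smul_eq_zero.1 hN).resolve_left (by norm_num))
    obtain ⟨k, hk⟩ := h.even0 a1 (by rw [map_sub, h.bv, sub_self])
    have a3 := h.pd.pos _ a2
    have a4 := hr _ a1
    have a5 := h.pd.norm_sub y (τ i • y)
    rw [h.inv] at a5
    rw [hk] at a3 a4 a5
    have : 0 < k := by exact_mod_cast (by linarith : (0 : ℚ) < k)
    have : k ≠ 1 := by rintro rfl; simp at a4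
    have : (2 : ℚ) ≤ k := by exact_mod_cast (by omega : 2 ≤ k)
    linarith
  have h2 := sum_le_sum h1
  have h3 := h.sum_b (x := y) (a := 0) (by simpa using hv)
  rw [← add_sum_erase _ _ (mem_univ 0), h.tau.zero, one_smul] at h3
  simp only [sum_const, card_erase_of_mem (mem_univ _), card_univ, ZMod.card] at h2
  norm_num at h2 h3
  linarith

/-- the glued lattice -/
noncomputable abbrev NN (j : ℤ) : Submodule ℤ (ker (b v) × (Fin 2 → ℚ)) :=
  glue (sub L (ker (b v))) (h.pr x0) (zl 2) (j • gam 0 1)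

theorem lift {j : ℤ} {x : V} (hx : x ∈ L) {a : ℤ} (ha : b v x = a * D) {s t : ℤ}
    (hst : (23 : ℤ) ∣ t - 6 * s - a * j) : (h.pr x, gam s t) ∈ h.NN j :=
  ⟨a, h.pr_sub hx ha, by rw [smul_smul]; exact gam_mem hst⟩

theorem unlift {j : ℤ} {z : ker (b v) × (Fin 2 → ℚ)} (hz : z ∈ h.NN j) : ∃ a s t : ℤ,
    (z.1 : V) + (a / 23 : ℚ) • v ∈ L ∧ z.2 = gam s t ∧ (23 : ℤ) ∣ t - 6 * s - a * j := by
  obtain ⟨a, h1, h2⟩ := hz
  rw [smul_smul] at h2
  obtain ⟨s, t, e1, e2⟩ := eq_gam h2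
  exact ⟨a, s, t, h.of_pr_sub h1, e1, e2⟩

include h in
theorem shift {y : V} {a a' : ℤ} (hy : y + (a / 23 : ℚ) • v ∈ L) (hd : (23 : ℤ) ∣ a' - a) :
    y + (a' / 23 : ℚ) • v ∈ L := by
  obtain ⟨m, hm⟩ := hd
  convert add_mem hy (L.smul_mem m h.vL) using 1
  have : (a' : ℚ) = a + 23 * m := by exact_mod_cast (by linarith : a' = a + 23 * m)
  rw [this, ← Int.cast_smul_eq_zsmul ℚ]
  module

theorem leech (H : Irr G V) (hr : ∀ x ∈ L, b x x ≠ 2) : ∃ (j k : ℤ), ¬ (23 : ℤ) ∣ j ∧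
    b (h.pr x0) (h.pr x0) = 2 * k / 23 ∧ (23 : ℤ) ∣ k + j ^ 2 * 2 ∧
    EU (bsum (b.restrict (ker (b v))) (mf A2)) (h.NN j) ∧
    ∃ F : leechLattice →+ ker (b v) × (Fin 2 → ℚ), (∀ z, z ∈ h.NN j ↔ ∃ l, F l = z) ∧
      (∀ x y, (dt(x, y) : ℚ) = 8 * (b (F x).1 (F y).1 + mf A2 (F x).2 (F y).2)) ∧
      F U0 = (0, iv 1 0) ∧ F W0 = (0, iv 0 1) := by
  obtain ⟨k, hk⟩ := h.d23
  have hd : finrank ℚ (ker (b v)) = 22 := by
    have := finrank_perp (b := b) (v := v) (by rw [h.nv]; have := h.d0; positivity)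
    rw [H.dim] at this; omega
  obtain ⟨j, hj, hjk⟩ := hk.sign hd
  have eu : EU _ (h.NN j) := glue_eu hk (gam0 ▸ b2_d23.smul hj) hjk
  refine ⟨j, k, hj, hk.nrm, hjk, eu, ?_⟩
  obtain ⟨f, hf⟩ := eu.leech (by rw [Module.finrank_prod, hd]; simp) fun z hz e => by
    obtain ⟨a, s, t, h1, h2, h3⟩ := h.unlift hz
    rw [bsum_apply, h2, gam_gam] at e
    change b z.1 z.1 + _ = _ at e
    by_cases h0 : (z.1 : V) = 0
    · rw [h0, zero_add] at h1
      obtain ⟨m, hm⟩ := mem_ZZ.1 (h.ZZ h1 h.x0L)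
      simp only [map_smul, LinearMap.smul_apply, h.x0v, smul_eq_mul] at hm
      have : (23 : ℤ) ∣ a * D := ⟨m, by exact_mod_cast (by linarith : (a : ℚ) * D = 23 * m)⟩
      obtain ⟨a, rfl⟩ := (prime23.dvd_or_dvd this).resolve_right h.nd
      obtain ⟨p, hp⟩ : (23 : ℤ) ∣ t - 6 * s := by
        have := dvd_add h3 (Dvd.intro (a * j) rfl)
        rwa [mul_assoc, sub_add_cancel] at this
      obtain rfl : t = 6 * s + 23 * p := by linarith
      simp only [h0, map_zero, zero_add] at e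
      have : 6 * s ^ 2 + 46 * s * p + 92 * p ^ 2 = 2 := by
        have : (6 : ℚ) * s ^ 2 + 46 * s * p + 92 * p ^ 2 = 2 := by push_cast at e; linarith
        exact_mod_cast this
      have a1 : (6 * s + 23 * p) ^ 2 + 23 * p ^ 2 = 12 := by linarith
      have a2 : p = 0 := by nlinarith [sq_nonneg (6 * s + 23 * p)]
      subst a2
      omega
    · have a1 := h.min_proj hr z.1.2 h1 h0
      have a2 : 6 * s * s - s * t - t * s + 4 * t * t ≤ 2 := by
        exact_mod_cast (by linarith : (6 : ℚ) * s * s - s * t - t * s + 4 * t * t ≤ 2)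
      obtain rfl : s = 0 := by nlinarith [sq_nonneg (s - t), sq_nonneg t]
      obtain rfl : t = 0 := by nlinarith
      have a3 : (23 : ℤ) ∣ 0 - a := by
        simp only [mul_zero, sub_self, zero_sub, dvd_neg] at h3 ⊢
        exact (prime23.dvd_or_dvd h3).resolve_right hj
      exact hr z.1 (by simpa using h.shift h1 a3) (by simpa using e)
  have hdot : ∀ x y : h.NN j, (dt(f x, f y) : ℚ) =
      8 * (b x.1.1 y.1.1 + mf A2 x.1.2 y.1.2) := fun x y => by
    have a1 := hf (x + y)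
    rw [map_add, AddSubgroup.coe_add, sqNorm_add, Submodule.coe_add, eu.pd.norm_add] at a1
    push_cast at a1
    rw [hf, hf] at a1
    change _ = 8 * bsum (b.restrict (ker (b v))) (mf A2) x y
    linarith
  let u : h.NN j := ⟨(0, iv 1 0), 0, by simp, by simpa using iv_mem 1 0⟩
  let w : h.NN j := ⟨(0, iv 0 1), 0, by simp, by simpa using iv_mem 0 1⟩
  obtain ⟨g1, a1, a2⟩ := exists_smul_pair48 (k := 8) (y := -vYA) (n := 48600) (by simp [co3_L])
    (v := f w) (w := f u)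
    (Int.cast_injective (α := ℚ) (by rw [sqNorm_eq_dot, hdot]; simp [w, iv_iv]; norm_num))
    (Int.cast_injective (α := ℚ) (by rw [sqNorm_eq_dot, hdot]; simp [u, iv_iv]; norm_num))
    (Int.cast_injective (α := ℚ) (by rw [hdot]; simp [u, w, iv_iv]))
  obtain ⟨g2, a3, a4⟩ := exists_smul_pair48 (k := 8) (y := -vYA) (n := 48600) (by simp [co3_L])
    nm_W0 nm_U0 dt_W0_U0
  refine ⟨AddMonoidHom.mk' (fun l => (f.symm ((g1 * g2⁻¹) • l)).1) fun x y => by
    rw [smul_add, map_add]; rfl, fun z => ⟨fun hz => ⟨(g1 * g2⁻¹)⁻¹ • f ⟨z, hz⟩, by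
      rw [AddMonoidHom.mk'_apply, smul_inv_smul, f.symm_apply_apply]⟩, ?_⟩,
    fun x y => ?_, ?_, ?_⟩
  · rintro ⟨l, rfl⟩; exact (f.symm _).2
  · simp only [AddMonoidHom.mk'_apply]
    rw [← hdot, f.apply_symm_apply, f.apply_symm_apply, dot_smul]
  · simp only [AddMonoidHom.mk'_apply]
    rw [← a4, mul_smul, inv_smul_smul, a2, f.symm_apply_apply]
  · simp only [AddMonoidHom.mk'_apply]
    rw [← a3, mul_smul, inv_smul_smul, a1, f.symm_apply_apply]

end Core

end Cfsg.Lib.FT
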