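import Cfsg.Agent.S1632
import Cfsg.Agent.S0406

/-!
# Even unimodular lattices in rational quadratic spaces
-/

set_option autoImplicit false

namespace Cfsg.Lib.FT

open Matrix Module LinearMap

section theta

open Cfsg.Lib.CharDeg.Poisson Complex

theorem th_inv' {m : ℕ} {B C : Matrix (Fin (2 * m)) (Fin (2 * m)) ℤ} (h : Lat B C) {z : ℂ}
    (hz : 0 < z.im) : th B (-z⁻¹) = (-I * z) ^ m * th B z := by
  obtain ⟨ε, h1, h2, h3⟩ := h.pos
  have hr : rl B * rl C = 1 := by
    have := congrArg (fun X => X.map (Int.castRingHom ℝ)) h.inv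
    simp only [Matrix.map_mul, Matrix.map_one _ (map_zero _) (map_one _)] at this
    exact this
  obtain ⟨κ, hκ⟩ := poisson (2 * m) (rl B) (rl C) ε h1 (fun i j => by simp [h.symm i j])
    (fun i j => by simp [h.symm' i j]) hr h2 h3
  have key : ∀ z : ℂ, 0 < z.im → (-I * z) ^ m * th B z = κ * th B (-z⁻¹) := fun z hz => by
    have hz0 : z ≠ 0 := fun e => by simp [e] at hz
    have ht0 : -I * z ≠ 0 := mul_ne_zero (neg_ne_zero.2 I_ne_zero) hz0
    have := hκ (-I * z) (by simpa using hz) 0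
    simp only [T_eq] at this
    let e : (Fin (2 * m) → ℤ) ≃ (Fin (2 * m) → ℤ) :=
      ⟨fun y => C *ᵥ y, fun y => B *ᵥ y, fun y => by
        simp only [mulVec_mulVec, h.inv, one_mulVec], fun y => by
        simp only [mulVec_mulVec, mul_eq_one_comm.1 h.inv, one_mulVec]⟩
    have e1 : ∑' y, U (rl C) (-I * z) 0 y = th B (-z⁻¹) := by
      rw [th, ← e.tsum_eq (term B (-z⁻¹))]
      refine tsum_congr fun y => ?_
      rw [U, term, smul_zero, add_zero, qf_int]
      change _ = cexp (_ * (((C *ᵥ y) ⬝ᵥ B *ᵥ (C *ᵥ y) : ℤ) : ℂ))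
      rw [h.qf_inv]
      congr 2
      field_simp
      linear_combination I_mul_I
    have e2 : ((-I * z) ^ (1 / 2 : ℂ)) ^ (2 * m) = (-I * z) ^ m := by
      have : ((-I * z) ^ (1 / 2 : ℂ)) ^ 2 = -I * z := by
        rw [one_div]; exact_mod_cast cpow_nat_inv_pow (-I * z) two_ne_zero
      rw [pow_mul, this]
    rw [e1, one_div, inv_pow, e2] at this
    rw [th, this]
    field_simp
  have k1 := key I (by simp)
  rw [inv_I, neg_neg, neg_mul, I_mul_I, neg_neg, one_pow] at k1
  rw [key z hz, ← mul_right_cancel₀ h.th_I_ne k1, one_mul]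

theorem four_dvd_of_lat {m : ℕ} {B C : Matrix (Fin (2 * m)) (Fin (2 * m)) ℤ} (h : Lat B C) :
    4 ∣ m := by
  have a1 := th_inv' h (z := I + 1) (by simp)
  have e1 : -(I + 1)⁻¹ = (-1 + I) / 2 := by
    have : I + 1 ≠ 0 := fun e => by simpa using congrArg Complex.re e
    field_simp
    linear_combination (-1 : ℂ) * I_mul_I
  have a2 := th_inv' h (z := (-1 + I) / 2 + 1) (by simp)
  have e2 : -((-1 + I) / 2 + 1)⁻¹ = -1 + I := by
    have : (-1 + I) / 2 + 1 ≠ 0 := fun e => by simpa using congrArg Complex.im e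
    have : (-1 + I) + 2 ≠ 0 := fun e => by simpa using congrArg Complex.im e
    field_simp
    linear_combination (-1 : ℂ) * I_mul_I
  have a3 := h.th_add_one (-1 + I)
  rw [h.th_add_one, e1] at a1
  rw [h.th_add_one, e2, a1, ← a3, show -1 + I + 1 = I by ring, ← mul_assoc, ← mul_pow] at a2
  have a4 : (-I * ((-1 + I) / 2 + 1) * (-I * (I + 1))) = -I := by
    linear_combination (I ^ 2 / 2 + I + 1 / 2 - 1 / 2) * I_mul_I
  rw [a4] at a2
  have a5 : (-I) ^ m = 1 := mul_right_cancel₀ h.th_I_ne (by rw [← a2, one_mul])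
  have : IsPrimitiveRoot (-I) 4 := Complex.isPrimitiveRoot_neg_I
  exact this.dvd_of_pow_eq_one _ a5

end theta

/-- the integers inside the rationals -/
abbrev ZZ : Subring ℚ := (Int.castRingHom ℚ).range

theorem mem_ZZ {q : ℚ} : q ∈ ZZ ↔ ∃ k : ℤ, q = k :=
  ⟨fun ⟨k, e⟩ => ⟨k, e.symm⟩, fun ⟨k, e⟩ => ⟨k, e.symm⟩⟩

theorem ZZ_of_coprime {q : ℚ} {m n : ℤ} (h : IsCoprime m n) (hm : m * q ∈ ZZ) (hn : n * q ∈ ZZ) :
    q ∈ ZZ := by
  obtain ⟨u, v, e⟩ := h
  have : q = u * (m * q) + v * (n * q) := by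
    have : (u : ℚ) * m + v * n = 1 := by exact_mod_cast e
    linear_combination (-q) * this
  rw [this]
  exact add_mem (mul_mem (intCast_mem _ _) hm) (mul_mem (intCast_mem _ _) hn)

variable {V : Type*} [AddCommGroup V] [Module ℚ V]

omit [Module ℚ V] in
theorem mem_of_coprime {L : Submodule ℤ V} {x : V} {m n : ℤ} (h : IsCoprime m n) (hm : m • x ∈ L)
    (hn : n • x ∈ L) : x ∈ L := by
  obtain ⟨u, v, e⟩ := h
  have : x = u • m • x + v • n • x := by rw [smul_smul, smul_smul, ← add_smul, e, one_smul]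
  rw [this]
  exact add_mem (L.smul_mem _ hm) (L.smul_mem _ hn)

/-- the dual lattice -/
def dual (b : LinearMap.BilinForm ℚ V) (L : Submodule ℤ V) : Submodule ℤ V := b.dualSubmodule L

theorem mem_dual {b : LinearMap.BilinForm ℚ V} {L : Submodule ℤ V} {x : V} :
    x ∈ dual b L ↔ ∀ y ∈ L, b x y ∈ ZZ := by
  simp only [dual, BilinForm.mem_dualSubmodule, Submodule.mem_one]
  rfl

theorem dual_anti {b : LinearMap.BilinForm ℚ V} {L L' : Submodule ℤ V} (h : L ≤ L') :
    dual b L' ≤ dual b L := fun _ hx => mem_dual.2 fun y hy => mem_dual.1 hx y (h hy)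

/-- positive definite symmetric forms -/
structure PD (b : LinearMap.BilinForm ℚ V) : Prop where
  symm : ∀ x y, b x y = b y x
  pos : ∀ x, x ≠ 0 → 0 < b x x

namespace PD

variable {b : LinearMap.BilinForm ℚ V} (h : PD b)
include h

theorem nonneg (x : V) : 0 ≤ b x x := by
  by_cases hx : x = 0
  · simp [hx]
  · exact (h.pos x hx).le

theorem eq_zero {x : V} (hx : b x x = 0) : x = 0 := by
  by_contra h0; exact (h.pos x h0).ne' hx

theorem isSymm : b.IsSymm := ⟨fun x y => h.symm x y⟩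

theorem nondeg : b.Nondegenerate :=
  h.isSymm.isRefl.nondegenerate_iff_separatingLeft.2 fun x hx => h.eq_zero (hx x)

theorem norm_add (x y : V) : b (x + y) (x + y) = b x x + b y y + 2 * b x y := by
  simp only [map_add, LinearMap.add_apply, h.symm y x]; ring

theorem norm_sub (x y : V) : b (x - y) (x - y) = b x x + b y y - 2 * b x y := by
  simp only [map_sub, LinearMap.sub_apply, h.symm y x]; ring

end PD

theorem exists_basis [FiniteDimensional ℚ V] (L : Submodule ℤ V) [L.IsLattice ℚ] {n : ℕ}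
    (hn : finrank ℚ V = n) :
    ∃ e : Basis (Fin n) ℤ L, Submodule.span ℤ (Set.range (e.extendOfIsLattice ℚ)) = L := by
  have hr : finrank ℤ L = n := by
    rw [← hn, finrank, finrank, Submodule.IsLattice.rank' ℚ L]
  refine ⟨Module.finBasisOfFinrankEq ℤ L hr, ?_⟩
  generalize Module.finBasisOfFinrankEq ℤ L hr = e
  have : Set.range (e.extendOfIsLattice ℚ) = L.subtype '' Set.range e := by
    rw [← Set.range_comp]; congr 1; funext i; simp
  rw [this, ← Submodule.map_span, e.span_eq, Submodule.map_top, Submodule.range_subtype]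

theorem finrank_lat [FiniteDimensional ℚ V] (L : Submodule ℤ V) [L.IsLattice ℚ] :
    finrank ℤ L = finrank ℚ V := by
  rw [finrank, finrank, Submodule.IsLattice.rank' ℚ L]

theorem PD.dual_dual [FiniteDimensional ℚ V] {b : LinearMap.BilinForm ℚ V} (h : PD b)
    (L : Submodule ℤ V) [L.IsLattice ℚ] : dual b (dual b L) = L := by
  obtain ⟨e, he⟩ := exists_basis L rfl
  rw [← he]
  exact BilinForm.dualSubmodule_dualSubmodule_of_basis b h.nondeg h.isSymm _

theorem PD.dual_lat [FiniteDimensional ℚ V] {b : LinearMap.BilinForm ℚ V} (h : PD b)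
    (L : Submodule ℤ V) [L.IsLattice ℚ] : (dual b L).IsLattice ℚ := by
  obtain ⟨e, he⟩ := exists_basis L rfl
  rw [← he, dual, BilinForm.dualSubmodule_span_of_basis b h.nondeg]
  refine ⟨Submodule.fg_span (Set.finite_range _), ?_⟩
  rw [Submodule.span_span_of_tower, Basis.span_eq]

theorem PD.exists_one [FiniteDimensional ℚ V] [Nontrivial V] {b : LinearMap.BilinForm ℚ V}
    (h : PD b) (L : Submodule ℤ V) [L.IsLattice ℚ] : ∃ x ∈ L, ∃ y ∈ dual b L, b y x = 1 := by
  obtain ⟨e, he⟩ := exists_basis L rfl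
  have i : Fin (finrank ℚ V) := ⟨0, finrank_pos⟩
  refine ⟨e i, (e i).2, b.dualBasis h.nondeg (e.extendOfIsLattice ℚ) i, ?_, ?_⟩
  · have := BilinForm.dualSubmodule_span_of_basis (R := ℤ) b h.nondeg (e.extendOfIsLattice ℚ)
    rw [he] at this
    rw [dual, this]
    exact Submodule.subset_span ⟨i, rfl⟩
  · rw [← Basis.extendOfIsLattice_apply ℚ, BilinForm.apply_dualBasis_left, if_pos rfl]

theorem even_int {b : LinearMap.BilinForm ℚ V} (h : PD b) {N : Submodule ℤ V}
    (hN : ∀ x ∈ N, ∃ k : ℤ, b x x = 2 * k) {x y : V} (hx : x ∈ N) (hy : y ∈ N) : b x y ∈ ZZ := by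
  obtain ⟨k, hk⟩ := hN _ (add_mem hx hy)
  obtain ⟨k1, h1⟩ := hN _ hx
  obtain ⟨k2, h2⟩ := hN _ hy
  rw [h.norm_add] at hk
  exact mem_ZZ.2 ⟨k - k1 - k2, by push_cast; linarith⟩

/-- even unimodular lattices -/
structure EU (b : LinearMap.BilinForm ℚ V) (N : Submodule ℤ V) : Prop where
  pd : PD b
  lat : N.IsLattice ℚ
  even : ∀ x ∈ N, ∃ k : ℤ, b x x = 2 * k
  sd : dual b N ≤ N

theorem EU.gram [FiniteDimensional ℚ V] {b : LinearMap.BilinForm ℚ V} {N : Submodule ℤ V}
    (h : EU b N) {n : ℕ} (hn : finrank ℚ V = n) :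
    ∃ (B C : Matrix (Fin n) (Fin n) ℤ) (φ : (Fin n → ℤ) ≃+ N), CharDeg.Poisson.Lat B C ∧
      ∀ x y, ((x ⬝ᵥ B *ᵥ y : ℤ) : ℚ) = b (φ x) (φ y) := by
  have := h.lat
  obtain ⟨e, he⟩ := exists_basis N hn
  let f := b.dualBasis h.pd.nondeg (e.extendOfIsLattice ℚ)
  have hf : ∀ i, f i ∈ N := fun i => h.sd (by
    have := BilinForm.dualSubmodule_span_of_basis (R := ℤ) b h.pd.nondeg (e.extendOfIsLattice ℚ)
    rw [he] at this
    rw [dual, this]
    exact Submodule.subset_span ⟨i, rfl⟩)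
  have hfe : ∀ i j, b (f i) (e j) = if j = i then 1 else 0 := fun i j => by
    rw [← Basis.extendOfIsLattice_apply ℚ, BilinForm.apply_dualBasis_left]
  choose B hB using fun i j => mem_ZZ.1 (even_int h.pd h.even (e i).2 (e j).2)
  choose C hC using fun i j => mem_ZZ.1 (even_int h.pd h.even (hf i) (hf j))
  have hx : ∀ x : V, x = ∑ j, b (f j) x • (e j : V) := fun x => by
    have : (LinearMap.id : V →ₗ[ℚ] V) = ∑ j, (b (f j)).smulRight (e j : V) :=
      (e.extendOfIsLattice ℚ).ext fun i => by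
        simp [hfe, Finset.sum_ite_eq]
    simpa using LinearMap.congr_fun this x
  have hφ : ∀ x y : Fin n → ℤ, ((x ⬝ᵥ Matrix.of B *ᵥ y : ℤ) : ℚ) =
      b (e.equivFun.symm x) (e.equivFun.symm y) := fun x y => by
    simp only [Basis.equivFun_symm_apply, Submodule.coe_sum, Submodule.coe_smul, map_sum,
      LinearMap.sum_apply, map_zsmul, LinearMap.smul_apply, hB, dotProduct, mulVec, of_apply,
      zsmul_eq_mul]
    push_cast
    simp only [Finset.mul_sum]
    rw [Finset.sum_comm]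
    exact Finset.sum_congr rfl fun i _ => Finset.sum_congr rfl fun j _ => by ring
  refine ⟨Matrix.of B, Matrix.of C, e.equivFun.symm.toAddEquiv, ⟨fun i j => ?_, fun i j => ?_, ?_,
    fun x => ?_, fun x => ?_⟩, hφ⟩
  · exact Int.cast_injective (α := ℚ) (by simp only [of_apply, ← hB, h.pd.symm])
  · exact Int.cast_injective (α := ℚ) (by simp only [of_apply, ← hC, h.pd.symm])
  · ext i k
    refine Int.cast_injective (α := ℚ) ?_
    have := congrArg (b (e i)) (hx (f k))
    rw [h.pd.symm, hfe, map_sum] at this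
    simp only [map_smul, smul_eq_mul, hB, hC] at this
    rw [Matrix.mul_apply, Matrix.one_apply]
    push_cast
    rw [this]
    exact Finset.sum_congr rfl fun j _ => by simp [mul_comm]
  · have := h.pd.nonneg (e.equivFun.symm x)
    rw [← hφ] at this
    exact_mod_cast this
  · obtain ⟨k, hk⟩ := h.even _ (e.equivFun.symm x).2
    rw [← hφ] at hk
    exact ⟨k, by exact_mod_cast hk⟩

theorem EU.four_dvd [FiniteDimensional ℚ V] {b : LinearMap.BilinForm ℚ V} {N : Submodule ℤ V}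
    (h : EU b N) {m : ℕ} (hn : finrank ℚ V = 2 * m) : 4 ∣ m := by
  obtain ⟨B, C, -, hl, -⟩ := h.gram hn
  exact four_dvd_of_lat hl

theorem EU.leech [FiniteDimensional ℚ V] {b : LinearMap.BilinForm ℚ V} {N : Submodule ℤ V}
    (h : EU b N) (hn : finrank ℚ V = 24) (h2 : ∀ x ∈ N, b x x ≠ 2) :
    ∃ f : N ≃+ leechLattice, ∀ x : N, (sqNorm (f x : GolayPt → ℤ) : ℚ) = 8 * b x x := by
  obtain ⟨B, C, φ, hl, hφ⟩ := h.gram hn
  have hs : B.IsSymm := Matrix.IsSymm.ext fun i j => hl.symm j i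
  have hpos : ∀ x : Fin 24 → ℤ, x ≠ 0 → 0 < x ⬝ᵥ B *ᵥ x := fun x hx => by
    have := h.pd.pos (φ x) (by simpa using hx)
    rw [← hφ] at this
    exact_mod_cast this
  have hr : ∀ x : Fin 24 → ℤ, x ⬝ᵥ B *ᵥ x ≠ 2 := fun x e => h2 _ (φ x).2 (by
    rw [← hφ, e]; rfl)
  have hdet : B.det = 1 := by
    have h1 : B.det * C.det = 1 := by rw [← det_mul, hl.inv, det_one]
    obtain ⟨ε, hε, hp, -⟩ := hl.pos
    have h3 : (CharDeg.Poisson.rl B).PosDef := by
      refine Matrix.PosDef.of_dotProduct_mulVec_pos ?_ fun x hx => ?_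
      · ext i j; simp [hl.symm i j]
      · refine lt_of_lt_of_le ?_ (hp x)
        obtain ⟨i, hi⟩ := Function.ne_iff.1 hx
        exact mul_pos hε (Finset.sum_pos' (fun j _ => sq_nonneg _)
          ⟨i, Finset.mem_univ _, sq_pos_of_ne_zero hi⟩)
    have h4 := h3.det_pos
    have h5 : (CharDeg.Poisson.rl B).det = (B.det : ℝ) := (Int.cast_det B).symm
    rw [h5] at h4
    have h6 : 0 < B.det := by exact_mod_cast h4
    rcases Int.eq_one_or_neg_one_of_mul_eq_one h1 with e | e
    · exact e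
    · omega
  obtain ⟨h4, h6, h8⟩ := Agent.S1632.result B hs hpos hl.even hdet hr
  obtain ⟨f, hf⟩ := Agent.S0406.result B hs hpos hl.even hr h4 h6 h8
  refine ⟨φ.symm.trans f, fun x => ?_⟩
  rw [AddEquiv.trans_apply, hf]
  push_cast
  rw [hφ, AddEquiv.apply_symm_apply]

end Cfsg.Lib.FT
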