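import Cfsg.Agent.Lib.FT.Roots
import Cfsg.Agent.Lib.Leech.Orders
import Cfsg.Agent.Lib.Leech.Cross

/-!
# Extending the action to the Leech lattice
-/

set_option autoImplicit false
set_option linter.unusedSectionVars false

namespace Cfsg.Lib.FT

open Module LinearMap Finset Cfsg.Lib.Leech MulAction

theorem embed_stab {G : Type*} [Group G] (ψ : G →* Co0) (hψ : Function.Injective ψ)
    {x y : leechLattice} (hx : x ≠ 0) {a : Co0} (ha : a • x = y)
    (h : ∀ g, ψ g • y = y ∨ ψ g • y = -y) :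
    ∃ f : G →* Multiplicative (ZMod 2) × stabilizer Co0 x, Function.Injective f := by
  let σ : Multiplicative (ZMod 2) →* Co0 := MonoidHom.mk' (fun e => if e = 1 then 1 else negOne) (by
    have : ∀ e : Multiplicative (ZMod 2), e = 1 ∨ e = Multiplicative.ofAdd 1 := by decide
    have h1 : (Multiplicative.ofAdd 1 : Multiplicative (ZMod 2)) ≠ 1 := by decide
    have h2 : (Multiplicative.ofAdd 1 * Multiplicative.ofAdd 1 : Multiplicative (ZMod 2)) = 1 := by
      decide
    intro e e'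
    rcases this e with rfl | rfl <;> rcases this e' with rfl | rfl <;>
      simp [h1, h2, negOne_mul_self])
  have hσ : ∀ e, σ e = if e = 1 then 1 else negOne := fun _ => rfl
  let Θ := σ.noncommCoprod (stabilizer Co0 x).subtype fun e k => by
    rw [hσ]; split_ifs
    · exact Commute.one_left _
    · exact (negOne_comm _).symm
  have hΘ : ∀ p, Θ p = σ p.1 * p.2 := fun _ => rfl
  have hneg : -x ≠ x := fun e => hx (by
    have : (2 : ℤ) • x = 0 := by rw [two_smul]; nth_rewrite 1 [← e]; simp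
    exact (smul_eq_zero.1 this).resolve_left two_ne_zero)
  have hinj : Function.Injective Θ := (injective_iff_map_eq_one _).2 fun p hp => by
    rw [hΘ, hσ] at hp
    split_ifs at hp with e
    · exact Prod.ext e (Subtype.ext (by simpa using hp))
    · have := congrArg (· • x) hp
      simp only [mul_smul, one_smul, negOne_smul] at this
      rw [show (p.2 : Co0) • x = x from p.2.2] at this
      exact absurd this hneg
  let ψ' : G →* Co0 := (MulAut.conj a⁻¹).toMonoidHom.comp ψ
  have hψ' : ∀ g, ψ' g • x = a⁻¹ • ψ g • y := fun g => by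
    simp [ψ', mul_smul, ha]
  have hr : ∀ g, ψ' g ∈ Θ.range := fun g => by
    rcases h g with e | e
    · exact ⟨(1, ⟨ψ' g, by rw [mem_stabilizer_iff, hψ', e, ← ha, inv_smul_smul]⟩), by
        rw [hΘ, map_one, one_mul]⟩
    · refine ⟨(Multiplicative.ofAdd 1, ⟨negOne * ψ' g, by
        rw [mem_stabilizer_iff, mul_smul, hψ', e, ← ha, smul_neg, inv_smul_smul, negOne_smul,
          neg_neg]⟩), ?_⟩
      rw [hΘ, hσ, if_neg (show ¬ (Multiplicative.ofAdd 1 : Multiplicative (ZMod 2)) = 1 by decide),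
        ← mul_assoc, negOne_mul_self, one_mul]
  refine ⟨(MonoidHom.ofInjective hinj).symm.toMonoidHom.comp (ψ'.codRestrict _ hr), ?_⟩
  refine (MonoidHom.ofInjective hinj).symm.injective.comp fun g g' e => hψ ?_
  exact (MulAut.conj a⁻¹).injective (congrArg Subtype.val e)

variable {G : Type*} [Group G] [Finite G] {V : Type*} [AddCommGroup V] [Module ℚ V]
  [FiniteDimensional ℚ V] [DistribMulAction G V] [SMulCommClass G ℚ V]

/-- the lattice as the orthogonal complement of a vector of the Leech lattice -/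
structure Emb (b : LinearMap.BilinForm ℚ V) (L : Submodule ℤ V) (D : ℤ)
    (E : leechLattice →+ V × ℚ) (w : leechLattice) : Prop where
  dot : ∀ x y, (dt(x, y) : ℚ) = 8 * (b (E x).1 (E y).1 + D * (E x).2 * (E y).2)
  mem : ∀ x : V, x ∈ L ↔ ∃ l, E l = (x, 0)
  w : E w = (0, 1)
  sd : ∀ z : V × ℚ, (∀ l, b z.1 (E l).1 + D * z.2 * (E l).2 ∈ ZZ) → ∃ l, E l = z

namespace Emb

variable {b : LinearMap.BilinForm ℚ V} {L : Submodule ℤ V} {D : ℤ} {E : leechLattice →+ V × ℚ}
  {w : leechLattice} (h : Emb b L D E w)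
include h

theorem inj : Function.Injective E := (injective_iff_map_eq_zero E).2 fun x hx => by
  have := h.dot x x
  rw [hx, ← sqNorm_eq_dot] at this
  exact Subtype.ext (sqNorm_eq_zero (by simpa using this))

theorem int (x y : leechLattice) : b (E x).1 (E y).1 + D * (E x).2 * (E y).2 ∈ ZZ := by
  obtain ⟨k, hk⟩ := eight_dvd_dot x.2 y.2
  have := h.dot x y
  rw [hk] at this
  exact mem_ZZ.2 ⟨k, by push_cast at this; linarith⟩

theorem hom (H : Irr G V) (gd : Gd G b L) (hD : 2 < D) {l0 : leechLattice} {c n0 : ℤ}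
    (h0 : D * (E l0).2 = c) (hn : nm(l0) = 8 * n0) (hc : IsCoprime c D)
    (har : ∀ i n : ℤ, -D ≤ 2 * i → 2 * i ≤ D → n = 0 ∨ 2 ≤ n →
      n0 * D - c ^ 2 + i ^ 2 = 2 * n * D → D ∣ i - c ∨ D ∣ i + c) :
    ∃ ψ : G →* Co0, Function.Injective ψ ∧ ∀ g, ∃ ε : ℚ, (ε = 1 ∨ ε = -1) ∧
      ∀ l, E (ψ g • l) = (g • (E l).1, ε * (E l).2) := by
  have D0 : (D : ℚ) ≠ 0 := by exact_mod_cast (by omega : D ≠ 0)
  have h0' : (E l0).2 = c / D := by rw [← h0]; field_simp
  obtain ⟨u, u', hu⟩ := hc
  have hu' : (u : ℚ) * c + u' * D = 1 := by exact_mod_cast hu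
  have gen : ∀ l, ∃ (i m : ℤ) (x : V), x ∈ L ∧ E l = i • E l0 + m • (0, 1) + (x, 0) := fun l => by
    obtain ⟨n, hn⟩ := mem_ZZ.1 (h.int w l)
    rw [h.w] at hn
    simp only [map_zero, LinearMap.zero_apply, zero_add, mul_one] at hn
    have e : (E (l - (n * u) • l0 - (n * u') • w)).2 = 0 := by
      simp only [map_sub, map_zsmul, h.w, Prod.snd_sub, Prod.smul_snd, h0', zsmul_eq_mul]
      push_cast
      field_simp
      linear_combination hn - n * hu'
    refine ⟨n * u, n * u', (E (l - (n * u) • l0 - (n * u') • w)).1,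
      (h.mem _).2 ⟨_, Prod.ext rfl e⟩, ?_⟩
    rw [← e, Prod.mk.eta, map_sub, map_sub, map_zsmul, map_zsmul, h.w]
    abel
  have ext : ∀ g : G, ∃ ε : ℚ, (ε = 1 ∨ ε = -1) ∧ ∃ l, E l = (g • (E l0).1, ε * (E l0).2) := by
    intro g
    have hy : ∀ x ∈ L, b (g • (E l0).1) x ∈ ZZ := fun x hx => by
      obtain ⟨l, hl⟩ := (h.mem _).1 (gd.stab g⁻¹ x hx)
      have := h.int l0 l
      rw [hl] at this
      simpa [gd.inv.left] using this
    obtain ⟨r, hr⟩ := mem_ZZ.1 (hy (D • (E l0).1) ((h.mem _).2 ⟨D • l0 - c • w, by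
      rw [map_sub, map_zsmul, map_zsmul, h.w]
      ext <;> simp [h0]⟩))
    rw [map_zsmul, zsmul_eq_mul] at hr
    obtain ⟨i, t, hi, hi1, hi2⟩ : ∃ i t : ℤ, i = -r * u + D * t ∧ -D ≤ 2 * i ∧ 2 * i ≤ D := by
      have h1 := Int.emod_add_mul_ediv (-r * u) D
      have h2 := Int.emod_nonneg (-r * u) (by omega : D ≠ 0)
      have h3 := Int.emod_lt_of_pos (-r * u) (by omega : 0 < D)
      by_cases e : 2 * (-r * u % D) ≤ D
      · exact ⟨-r * u % D, -(-r * u / D), by linarith, by omega, e⟩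
      · exact ⟨-r * u % D - D, -(-r * u / D) - 1, by linarith, by omega, by omega⟩
    obtain ⟨l, hl⟩ := h.sd (g • (E l0).1, i / D) fun l => by
      obtain ⟨a, m, x, hx, e⟩ := gen l
      obtain ⟨k, hk⟩ := mem_ZZ.1 (hy x hx)
      refine mem_ZZ.2 ⟨a * (r * u' + t * c) + m * i + k, ?_⟩
      simp only [e, Prod.fst_add, Prod.snd_add, Prod.smul_fst, Prod.smul_snd, map_add, map_zsmul,
        hk, h0', zsmul_eq_mul, smul_zero, map_zero, hi]
      push_cast
      field_simp
      linear_combination a * hr - a * r * hu'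
    have e1 := h.dot l l
    have e2 := h.dot l0 l0
    rw [← sqNorm_eq_dot] at e1 e2
    obtain ⟨n, hn'⟩ := sixteen_dvd_sqNorm l.2
    have hn2 : n = 0 ∨ 2 ≤ n := by
      by_cases e : l = 0
      · left; rw [e] at hn'; simp [sqNorm] at hn'; omega
      · have := min_sqNorm l.2 (by simpa using e); omega
    rw [hl, hn'] at e1
    rw [hn, h0'] at e2
    simp only [gd.inv g] at e1
    have e3 : n0 * D - c ^ 2 + i ^ 2 = 2 * n * D := by
      have : (n0 : ℚ) * D - c ^ 2 + i ^ 2 = 2 * n * D := by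
        push_cast at e1 e2
        field_simp at e1 e2
        linarith
      exact_mod_cast this
    rcases har i n hi1 hi2 hn2 e3 with ⟨m, hm⟩ | ⟨m, hm⟩
    · refine ⟨1, Or.inl rfl, l - m • w, ?_⟩
      have : (i : ℚ) - c = D * m := by exact_mod_cast hm
      rw [map_sub, map_zsmul, hl, h.w, h0']
      ext
      · simp
      · simp; field_simp; linarith
    · refine ⟨-1, Or.inr rfl, l - m • w, ?_⟩
      have : (i : ℚ) + c = D * m := by exact_mod_cast hm
      rw [map_sub, map_zsmul, hl, h.w, h0']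
      ext
      · simp
      · simp; field_simp; linarith
  have ext2 : ∀ g : G, ∃ ε : ℚ, (ε = 1 ∨ ε = -1) ∧ ∃ γ : Co0,
      ∀ l, E (γ • l) = (g • (E l).1, ε * (E l).2) := fun g => by
    obtain ⟨ε, hε, l1, hl1⟩ := ext g
    obtain ⟨e, rfl⟩ : ∃ e : ℤ, ε = e := by
      rcases hε with rfl | rfl
      · exact ⟨1, by simp⟩
      · exact ⟨-1, by simp⟩
    have : ∀ l, ∃ l', E l' = (g • (E l).1, e * (E l).2) := fun l => by
      obtain ⟨a, m, x, hx, e1⟩ := gen l
      obtain ⟨l2, hl2⟩ := (h.mem _).1 (gd.stab g x hx)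
      refine ⟨a • l1 + (m * e) • w + l2, ?_⟩
      rw [map_add, map_add, map_zsmul, map_zsmul, hl1, hl2, h.w, e1]
      ext
      · simp [smul_comm g]
      · simp; ring
    choose f hf using this
    obtain ⟨γ, hγ⟩ := exists_co0_of_hom (AddMonoidHom.mk' f fun x y => h.inj (by
      rw [map_add, hf, hf, hf, map_add]
      ext <;> simp [mul_add])) fun x => Int.cast_injective (α := ℚ) (by
        rw [sqNorm_eq_dot, sqNorm_eq_dot, h.dot, h.dot, AddMonoidHom.mk'_apply, hf]
        simp only [gd.inv g]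
        rcases hε with e | e <;> rw [e] <;> ring)
    exact ⟨e, hε, γ, fun l => by rw [hγ]; exact hf l⟩
  choose ε hε ψ hψ using ext2
  have uniq : ∀ (g : G) (e : ℚ) (γ : Co0), e = 1 ∨ e = -1 →
      (∀ l, E (γ • l) = (g • (E l).1, e * (E l).2)) → γ = ψ g := fun g e γ he hγ => by
    have : e = ε g := by
      by_contra hne
      obtain ⟨k, hk⟩ := mem_ZZ.1 (h.int (γ • l0 - ψ g • l0) l0)
      rw [map_sub, hγ, hψ, h0'] at hk
      simp only [Prod.fst_sub, Prod.snd_sub, sub_self, map_zero, LinearMap.zero_apply] at hk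
      field_simp at hk
      have h2 : D ∣ 2 * c ^ 2 := by
        rcases he with rfl | rfl <;> rcases hε g with e' | e' <;> rw [e'] at hk hne
        · exact absurd rfl hne
        · exact ⟨k, by exact_mod_cast (by linarith : (2 : ℚ) * c ^ 2 = D * k)⟩
        · exact ⟨-k, by exact_mod_cast (by linarith : (2 : ℚ) * c ^ 2 = D * -k)⟩
        · exact absurd rfl hne
      have := Int.le_of_dvd (by norm_num)
        ((IsCoprime.pow_right (n := 2) (IsCoprime.symm ⟨u, u', hu⟩)).dvd_of_dvd_mul_right h2)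
      omega
    exact co0_ext fun l => h.inj (by rw [hγ, hψ, this])
  refine ⟨MonoidHom.mk' ψ fun g g' => (uniq (g * g') (ε g * ε g') _ ?_ fun l => ?_).symm,
    (injective_iff_map_eq_one _).2 fun g hg => H.faith g fun x => ?_, fun g => ⟨ε g, hε g, hψ g⟩⟩
  · rcases hε g with e | e <;> rcases hε g' with e' | e' <;> simp [e, e']
  · rw [mul_smul, hψ, hψ, mul_smul, mul_assoc]
  · have := gd.lat
    obtain ⟨n, hn, hx⟩ := exists_mul_mem L x
    obtain ⟨l, hl⟩ := (h.mem _).1 hx
    have := congrArg Prod.fst (hψ g l)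
    rw [show ψ g = 1 from hg, one_smul, hl, smul_comm] at this
    simp only [← Int.cast_smul_eq_zsmul ℚ] at this
    exact (smul_right_injective V (by exact_mod_cast hn) this).symm

theorem final (H : Irr G V) {ψ : G →* Co0} (hψ : Function.Injective ψ)
    (hE : ∀ g, ∃ ε : ℚ, (ε = 1 ∨ ε = -1) ∧ ∀ l, E (ψ g • l) = (g • (E l).1, ε * (E l).2))
    {s r : leechLattice} (hs : s = w + (r + r))
    (hn : nm(s) = 32 ∨ nm(s) = 48 ∨ (s = e8 none ∧ (E s).1 ≠ 0)) :
    (∃ f : G →* Multiplicative (ZMod 2) × Cfsg.Spor.Co2, Function.Injective f) ∨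
    (∃ f : G →* Multiplicative (ZMod 2) × Cfsg.Spor.Co3, Function.Injective f) := by
  have hc : ∀ g, code s = code (ψ g • s) := fun g => by
    obtain ⟨ε, hε, e⟩ := hE g
    have h1 : code s = code w := code_eq_iff'.2 ⟨r, by rw [hs]; abel⟩
    rw [code_smul_congr _ _ _ h1, h1]
    have := e w
    rw [h.w] at this
    rcases hε with rfl | rfl
    · rw [h.inj (this.trans (by rw [h.w]; simp) : E (ψ g • w) = E w)]
    · rw [h.inj (this.trans (by rw [map_neg, h.w]; simp) : E (ψ g • w) = E (-w)), code_neg]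
  rcases hn with e | e | ⟨e, e'⟩
  · obtain ⟨a, ha⟩ := exists_smul_U e
    obtain ⟨f, hf⟩ := embed_stab ψ hψ (by
      rintro e0; rw [← ha, e0, smul_zero] at e; simp [sqNorm] at e) ha fun g =>
      eq_or_neg_of_code (by omega) (by rw [sqNorm_smul]; omega) (hc g)
    exact Or.inl ⟨((MonoidHom.id _).prodMap co2Equiv.toMonoidHom).comp f,
      (Function.injective_id.prodMap co2Equiv.injective).comp hf⟩
  · obtain ⟨a, ha⟩ := exists_smul_V e
    obtain ⟨f, hf⟩ := embed_stab ψ hψ (by
      rintro e0; rw [← ha, e0, smul_zero] at e; simp [sqNorm] at e) ha fun g =>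
      eq_or_neg_of_code (by omega) (by rw [sqNorm_smul]; omega) (hc g)
    exact Or.inr ⟨((MonoidHom.id _).prodMap co3Equiv.toMonoidHom).comp f,
      (Function.injective_id.prodMap co3Equiv.injective).comp hf⟩
  · refine (H.lines e' (ι := GolayPt) (by rw [Nat.card_eq_fintype_card, card_golayPt])
      (fun j => (E (e8 j)).1) fun g => ?_).elim
    obtain ⟨ε, -, e1⟩ := hE g
    obtain ⟨j, hj⟩ := eq_e8_of_code (y := ψ g • s) (by rw [sqNorm_smul, e, sqNorm_e8])
      ((hc g).symm.trans (by rw [e]))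
    have := congrArg Prod.fst (e1 s)
    refine ⟨j, hj.imp (fun e2 => ?_) fun e2 => ?_⟩
    · rw [e2] at this; exact this.symm
    · rw [e2, map_neg] at this; exact this.symm

end Emb

end Cfsg.Lib.FT
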