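import Cfsg.Agent.Lib.FT.Even

/-!
# Gluing even lattices of discriminant 23
-/

set_option autoImplicit false

namespace Cfsg.Lib.FT

open Matrix Module LinearMap

variable {V V' : Type*} [AddCommGroup V] [Module ℚ V] [AddCommGroup V'] [Module ℚ V']

/-- even lattices with discriminant group of order 23 generated by `m0` of norm `2k/23` -/
structure D23 (b : LinearMap.BilinForm ℚ V) (M : Submodule ℤ V) (m0 : V) (k : ℤ) : Prop where
  pd : PD b
  lat : M.IsLattice ℚ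
  even : ∀ x ∈ M, ∃ k : ℤ, b x x = 2 * k
  int0 : m0 ∈ dual b M
  mul : (23 : ℤ) • m0 ∈ M
  gen : ∀ y ∈ dual b M, ∃ j : ℤ, y - j • m0 ∈ M
  nrm : b m0 m0 = 2 * k / 23
  ndvd : ¬ (23 : ℤ) ∣ k

theorem prime23 : Prime (23 : ℤ) := Int.prime_iff_natAbs_prime.2 (by norm_num)

theorem coprime23 {j : ℤ} (h : ¬ (23 : ℤ) ∣ j) : IsCoprime j 23 :=
  (prime23.irreducible.coprime_iff_not_dvd.2 h).symm

theorem D23.smul {b : LinearMap.BilinForm ℚ V} {M : Submodule ℤ V} {m0 : V} {k : ℤ}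
    (h : D23 b M m0 k) {j : ℤ} (hj : ¬ (23 : ℤ) ∣ j) : D23 b M (j • m0) (j ^ 2 * k) where
  pd := h.pd
  lat := h.lat
  even := h.even
  int0 := Submodule.smul_mem _ _ h.int0
  mul := by rw [smul_comm]; exact M.smul_mem _ h.mul
  gen := fun y hy => by
    obtain ⟨i, hi⟩ := h.gen y hy
    obtain ⟨u, w, e⟩ := coprime23 hj
    refine ⟨i * u, ?_⟩
    convert add_mem hi (M.smul_mem (i * w) h.mul) using 1
    rw [smul_smul, smul_smul, sub_add, ← sub_smul]
    congr 2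
    linear_combination i * e
  nrm := by
    simp only [map_zsmul, LinearMap.smul_apply, h.nrm, zsmul_eq_mul]; push_cast; ring
  ndvd := fun e => (prime23.dvd_or_dvd e).elim (fun e => hj (prime23.dvd_of_dvd_pow e)) h.ndvd

theorem D23.of_notMem [FiniteDimensional ℚ V] {b : LinearMap.BilinForm ℚ V} {M : Submodule ℤ V}
    {m0 : V} (pd : PD b) (lat : M.IsLattice ℚ) (even : ∀ x ∈ M, ∃ k : ℤ, b x x = 2 * k)
    (int0 : m0 ∈ dual b M) (mul : (23 : ℤ) • m0 ∈ M)
    (gen : ∀ y ∈ dual b M, ∃ j : ℤ, y - j • m0 ∈ M) (nm : m0 ∉ M) : ∃ k, D23 b M m0 k := by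
  obtain ⟨t, ht⟩ := even _ mul
  obtain ⟨s, hs⟩ := mem_ZZ.1 (mem_dual.1 int0 _ mul)
  simp only [map_zsmul, LinearMap.smul_apply, zsmul_eq_mul] at ht hs
  have e : 23 * s = 2 * t := by
    have : (23 : ℚ) * s = 2 * t := by rw [← ht, ← hs]; push_cast; ring
    exact_mod_cast this
  obtain ⟨k, rfl⟩ : ∃ k, s = 2 * k := ⟨s / 2, by omega⟩
  have hn : b m0 m0 = 2 * k / 23 := by push_cast at hs; linarith
  refine ⟨k, pd, lat, even, int0, mul, gen, hn, ?_⟩
  rintro ⟨l, rfl⟩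
  refine nm ?_
  rw [← pd.dual_dual M]
  refine mem_dual.2 fun y hy => ?_
  obtain ⟨j, hj⟩ := gen y hy
  have : b m0 y = b m0 (y - j • m0) + j * (2 * l) := by
    simp only [map_sub, map_zsmul, hn, zsmul_eq_mul]; push_cast; ring
  rw [this]
  exact add_mem (mem_dual.1 int0 _ hj) (mem_ZZ.2 ⟨j * (2 * l), by push_cast; rfl⟩)

theorem D23.dvd_of_smul_mem {b : LinearMap.BilinForm ℚ V} {M : Submodule ℤ V} {m0 : V} {k : ℤ}
    (h : D23 b M m0 k) {j : ℤ} (hj : j • m0 ∈ M) : (23 : ℤ) ∣ j := by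
  obtain ⟨t, ht⟩ := mem_ZZ.1 (mem_dual.1 h.int0 _ hj)
  rw [map_zsmul, h.nrm, zsmul_eq_mul] at ht
  have e : j * (2 * k) = 23 * t := by
    have : (j : ℚ) * (2 * k) = 23 * t := by rw [← ht]; ring
    exact_mod_cast this
  rcases prime23.dvd_or_dvd ⟨t, e⟩ with a | a
  · exact a
  · exact ((prime23.dvd_or_dvd a).elim (by norm_num) h.ndvd).elim

/-- orthogonal sum of forms -/
def bsum (b : LinearMap.BilinForm ℚ V) (b' : LinearMap.BilinForm ℚ V') :
    LinearMap.BilinForm ℚ (V × V') :=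
  b.compl₁₂ (LinearMap.fst ℚ V V') (LinearMap.fst ℚ V V') +
    b'.compl₁₂ (LinearMap.snd ℚ V V') (LinearMap.snd ℚ V V')

theorem bsum_apply (b : LinearMap.BilinForm ℚ V) (b' : LinearMap.BilinForm ℚ V') (z w : V × V') :
    bsum b b' z w = b z.1 w.1 + b' z.2 w.2 := rfl

theorem PD.bsum {b : LinearMap.BilinForm ℚ V} {b' : LinearMap.BilinForm ℚ V'} (h : PD b)
    (h' : PD b') : PD (bsum b b') where
  symm := fun x y => by rw [bsum_apply, bsum_apply, h.symm, h'.symm]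
  pos := fun x hx => by
    rw [bsum_apply]
    by_cases h1 : x.1 = 0
    · have := h'.pos x.2 fun e => hx (Prod.ext h1 e)
      have := h.nonneg x.1
      linarith
    · have := h.pos x.1 h1
      have := h'.nonneg x.2
      linarith

/-- the glued lattice -/
def glue (M : Submodule ℤ V) (m : V) (M' : Submodule ℤ V') (m' : V') : Submodule ℤ (V × V') where
  carrier := {z | ∃ j : ℤ, z.1 - j • m ∈ M ∧ z.2 - j • m' ∈ M'}
  zero_mem' := ⟨0, by simp, by simp⟩
  add_mem' := by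
    rintro x y ⟨i, h1, h2⟩ ⟨j, h3, h4⟩
    refine ⟨i + j, ?_, ?_⟩
    · convert add_mem h1 h3 using 1; simp only [Prod.fst_add, add_smul]; abel
    · convert add_mem h2 h4 using 1; simp only [Prod.snd_add, add_smul]; abel
  smul_mem' := by
    rintro c x ⟨i, h1, h2⟩
    refine ⟨c * i, ?_, ?_⟩
    · convert M.smul_mem c h1 using 1; simp only [Prod.smul_fst, smul_sub, mul_smul]
    · convert M'.smul_mem c h2 using 1; simp only [Prod.smul_snd, smul_sub, mul_smul]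

omit [Module ℚ V] [Module ℚ V'] in
theorem mem_glue {M : Submodule ℤ V} {m : V} {M' : Submodule ℤ V'} {m' : V'} {z : V × V'} :
    z ∈ glue M m M' m' ↔ ∃ j : ℤ, z.1 - j • m ∈ M ∧ z.2 - j • m' ∈ M' := Iff.rfl

theorem glue_eu {b : LinearMap.BilinForm ℚ V} {M : Submodule ℤ V} {m : V} {k : ℤ}
    {b' : LinearMap.BilinForm ℚ V'} {M' : Submodule ℤ V'} {m' : V'} {k' : ℤ}
    (h : D23 b M m k) (h' : D23 b' M' m' k') (hk : (23 : ℤ) ∣ k + k') :
    EU (bsum b b') (glue M m M' m') := by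
  obtain ⟨l, hl⟩ := hk
  have hl' : (k : ℚ) + k' = 23 * l := by exact_mod_cast hl
  refine ⟨h.pd.bsum h'.pd, ⟨?_, ?_⟩, ?_, ?_⟩
  · have : glue M m M' m' = M.prod M' ⊔ Submodule.span ℤ {(m, m')} := by
      refine le_antisymm ?_ (sup_le ?_ ?_)
      · rintro z ⟨j, h1, h2⟩
        refine Submodule.mem_sup.2 ⟨z - j • (m, m'), ⟨h1, h2⟩, j • (m, m'),
          Submodule.smul_mem _ _ (Submodule.mem_span_singleton_self _), by abel⟩
      · rintro z ⟨h1, h2⟩
        exact ⟨0, by simpa using h1, by simpa using h2⟩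
      · rw [Submodule.span_le, Set.singleton_subset_iff]
        exact ⟨1, by simp, by simp⟩
    rw [this]
    exact (h.lat.fg.prod h'.lat.fg).sup (Submodule.fg_span_singleton _)
  · rw [eq_top_iff]
    rintro ⟨x, y⟩ -
    have h1 : x ∈ Submodule.span ℚ (M : Set V) := by rw [h.lat.span_eq_top]; trivial
    have h2 : y ∈ Submodule.span ℚ (M' : Set V') := by rw [h'.lat.span_eq_top]; trivial
    have h3 := Submodule.apply_mem_span_image_of_mem_span (LinearMap.inl ℚ V V') h1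
    have h4 := Submodule.apply_mem_span_image_of_mem_span (LinearMap.inr ℚ V V') h2
    have : (x, y) = LinearMap.inl ℚ V V' x + LinearMap.inr ℚ V V' y := by simp
    rw [this]
    refine add_mem (Submodule.span_mono ?_ h3) (Submodule.span_mono ?_ h4)
    · rintro _ ⟨z, hz, rfl⟩; exact ⟨0, by simpa using hz, by simp⟩
    · rintro _ ⟨z, hz, rfl⟩; exact ⟨0, by simp, by simpa using hz⟩
  · rintro z ⟨j, h1, h2⟩
    obtain ⟨t, ht⟩ := h.even _ h1
    obtain ⟨t', ht'⟩ := h'.even _ h2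
    obtain ⟨s, hs⟩ := mem_ZZ.1 (mem_dual.1 h.int0 _ h1)
    obtain ⟨s', hs'⟩ := mem_ZZ.1 (mem_dual.1 h'.int0 _ h2)
    refine ⟨t + t' + j * s + j * s' + j ^ 2 * l, ?_⟩
    have e1 : b z.1 z.1 = 2 * t + 2 * j * s + j ^ 2 * (2 * k / 23) := by
      rw [← ht, ← hs, ← h.nrm]
      simp only [map_sub, map_zsmul, LinearMap.sub_apply, LinearMap.smul_apply, zsmul_eq_mul,
        h.pd.symm z.1 m]
      ring
    have e2 : b' z.2 z.2 = 2 * t' + 2 * j * s' + j ^ 2 * (2 * k' / 23) := by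
      rw [← ht', ← hs', ← h'.nrm]
      simp only [map_sub, map_zsmul, LinearMap.sub_apply, LinearMap.smul_apply, zsmul_eq_mul,
        h'.pd.symm z.2 m']
      ring
    rw [bsum_apply, e1, e2]
    push_cast
    linear_combination (2 * j ^ 2 / 23 : ℚ) * hl'
  · intro z hz
    rw [mem_dual] at hz
    obtain ⟨j, hj⟩ := h.gen z.1 (mem_dual.2 fun y hy => by
      simpa [bsum_apply] using hz (y, 0) ⟨0, by simpa using hy, by simp⟩)
    obtain ⟨j', hj'⟩ := h'.gen z.2 (mem_dual.2 fun y hy => by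
      simpa [bsum_apply] using hz (0, y) ⟨0, by simp, by simpa using hy⟩)
    obtain ⟨s, hs⟩ := mem_ZZ.1 (mem_dual.1 h.int0 _ hj)
    obtain ⟨s', hs'⟩ := mem_ZZ.1 (mem_dual.1 h'.int0 _ hj')
    obtain ⟨t, ht⟩ := mem_ZZ.1 (hz (m, m') ⟨1, by simp, by simp⟩)
    simp only [map_sub, map_zsmul, zsmul_eq_mul, h.nrm, h'.nrm] at hs hs'
    rw [bsum_apply, h.pd.symm, h'.pd.symm] at ht
    have e : (j - j') * (2 * k) = 23 * (t - s - s' - 2 * j' * l) := by
      have : ((j : ℚ) - j') * (2 * k) = 23 * (t - s - s' - 2 * j' * l) := by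
        linear_combination 23 * ht - 23 * hs - 23 * hs' - 2 * j' * hl'
      exact_mod_cast this
    rcases prime23.dvd_or_dvd ⟨_, e⟩ with ⟨i, a⟩ | a
    · refine ⟨j, hj, ?_⟩
      convert sub_mem hj' (M'.smul_mem i h'.mul) using 1
      rw [smul_smul, sub_sub, ← add_smul]
      congr 2
      linarith
    · exact ((prime23.dvd_or_dvd a).elim (by norm_num) h.ndvd).elim

/-- the standard lattice -/
def zl (n : ℕ) : Submodule ℤ (Fin n → ℚ) where
  carrier := {x | ∀ i, x i ∈ ZZ}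
  zero_mem' := fun _ => zero_mem _
  add_mem' := fun hx hy i => add_mem (hx i) (hy i)
  smul_mem' := fun c _ hx i => zsmul_mem (hx i) c

theorem mem_zl {n : ℕ} {x : Fin n → ℚ} : x ∈ zl n ↔ ∀ i, x i ∈ ZZ := Iff.rfl

theorem zl_lat (n : ℕ) : (zl n).IsLattice ℚ := by
  have : zl n = Submodule.span ℤ (Set.range (Pi.basisFun ℚ (Fin n))) := by
    ext x
    rw [Basis.mem_span_iff_repr_mem]
    rfl
  rw [this]
  refine ⟨Submodule.fg_span (Set.finite_range _), ?_⟩
  rw [Submodule.span_span_of_tower, Basis.span_eq]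

/-- the form of an integer matrix -/
def mf {n : ℕ} (A : Matrix (Fin n) (Fin n) ℤ) : LinearMap.BilinForm ℚ (Fin n → ℚ) :=
  Matrix.toBilin' (A.map (Int.cast : ℤ → ℚ))

theorem mf_apply {n : ℕ} (A : Matrix (Fin n) (Fin n) ℤ) (x y : Fin n → ℚ) :
    mf A x y = ∑ i, ∑ j, x i * A i j * y j := by
  simp [mf, Matrix.toBilin'_apply]

theorem mf_cast {n : ℕ} (A : Matrix (Fin n) (Fin n) ℤ) (x y : Fin n → ℤ) :
    mf A (fun i => x i) (fun i => y i) = ((x ⬝ᵥ A *ᵥ y : ℤ) : ℚ) := by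
  simp only [mf_apply, dotProduct, mulVec]
  push_cast
  simp only [Finset.mul_sum, mul_assoc]

theorem D23.of_matrix {n : ℕ} {A C R : Matrix (Fin n) (Fin n) ℤ} {c J : Fin n → ℤ} {k : ℤ}
    (pd : PD (mf A)) (hev : ∀ x : Fin n → ℤ, 2 ∣ x ⬝ᵥ A *ᵥ x)
    (hCA : ∀ i l, ∑ j, C i j * A l j = if i = l then 23 else 0)
    (hC : ∀ i j, C i j = c i * J j + 23 * R i j) (hc : ∀ j, (23 : ℤ) ∣ ∑ i, c i * A i j)
    (hk : c ⬝ᵥ A *ᵥ c = 46 * k) (ndvd : ¬ (23 : ℤ) ∣ k) :
    D23 (mf A) (zl n) (fun i => c i / 23) k where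
  pd := pd
  lat := zl_lat n
  even := fun x hx => by
    choose z hz using fun i => mem_ZZ.1 (hx i)
    obtain ⟨t, ht⟩ := hev z
    refine ⟨t, ?_⟩
    rw [show x = fun i => (z i : ℚ) from funext hz, mf_cast, ht]; push_cast; rfl
  int0 := mem_dual.2 fun y hy => by
    rw [mf_apply, Finset.sum_comm]
    refine sum_mem fun j _ => ?_
    obtain ⟨t, ht⟩ := hc j
    have : ∑ i, (c i : ℚ) / 23 * A i j * y j = t * y j := by
      have : ∑ i, (c i : ℚ) * A i j = 23 * t := by exact_mod_cast ht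
      rw [← Finset.sum_mul, show (t : ℚ) = (∑ i, (c i : ℚ) * A i j) / 23 by rw [this]; ring,
        Finset.sum_div]
      congr 1
      exact Finset.sum_congr rfl fun i _ => by ring
    rw [this]
    exact mul_mem (intCast_mem _ _) (hy j)
  mul := fun i => mem_ZZ.2 ⟨c i, by simp; ring⟩
  gen := fun y hy => by
    have h1 : ∀ j, ∃ s : ℤ, ∑ l, y l * A l j = s := fun j => by
      have := mem_dual.1 hy (Pi.single j 1) fun i => by
        by_cases e : i = j
        · subst e; simp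
        · simp [e]
      rw [mf_apply, mem_ZZ] at this
      simpa [Pi.single_apply] using this
    choose s hs using h1
    refine ⟨∑ j, J j * s j, fun i => mem_ZZ.2 ⟨∑ j, R i j * s j, ?_⟩⟩
    have e : 23 * y i = ∑ j, (C i j : ℚ) * s j := by
      simp only [← hs, Finset.mul_sum]
      rw [Finset.sum_comm]
      have : ∀ l, ∑ j, (C i j : ℚ) * (y l * A l j) = y l * if i = l then 23 else 0 := fun l => by
        have : ∑ j, (C i j : ℚ) * A l j = if i = l then 23 else 0 := by exact_mod_cast hCA i l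
        rw [← this, Finset.mul_sum]
        exact Finset.sum_congr rfl fun j _ => by ring
      simp only [this]
      simp [mul_comm]
    simp only [hC] at e
    rw [Pi.sub_apply, Pi.smul_apply, zsmul_eq_mul]
    push_cast at e ⊢
    simp only [add_mul, Finset.sum_add_distrib, mul_assoc, ← Finset.mul_sum] at e
    linear_combination (1 / 23 : ℚ) * e
  nrm := by
    have : (fun i => (c i : ℚ) / 23) = (1 / 23 : ℚ) • fun i => (c i : ℚ) := by
      funext i; simp; ring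
    rw [this]
    simp only [map_smul, LinearMap.smul_apply, smul_eq_mul, mf_cast, hk]
    push_cast; ring
  ndvd := ndvd

/-- the binary lattice of discriminant 23 and minimum 4 -/
def A2 : Matrix (Fin 2) (Fin 2) ℤ := !![4, 1; 1, 6]

theorem b2_apply (x y : Fin 2 → ℚ) :
    mf A2 x y = 4 * x 0 * y 0 + x 0 * y 1 + x 1 * y 0 + 6 * x 1 * y 1 := by
  simp [mf_apply, A2, Fin.sum_univ_succ]; ring

theorem b2_pd : PD (mf A2) where
  symm := fun x y => by rw [b2_apply, b2_apply]; ring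
  pos := fun x hx => by
    rw [b2_apply]
    by_contra hc
    refine hx (funext fun i => ?_)
    have h0 : x 0 = 0 := by nlinarith [sq_nonneg (x 0 + x 1), sq_nonneg (x 0), sq_nonneg (x 1)]
    have h1 : x 1 = 0 := by nlinarith [sq_nonneg (x 0 + x 1), sq_nonneg (x 0), sq_nonneg (x 1)]
    fin_cases i <;> simpa

theorem b2_d23 : D23 (mf A2) (zl 2) (fun i => ((![-1, 4] : Fin 2 → ℤ) i : ℚ) / 23) 2 :=
  D23.of_matrix (C := !![6, -1; -1, 4]) (J := ![-6, 1]) (R := !![0, 0; 1, 0]) b2_pd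
    (fun x => ⟨2 * x 0 * x 0 + x 0 * x 1 + 3 * x 1 * x 1, by
      simp [A2, dotProduct, mulVec, Fin.sum_univ_succ]; ring⟩)
    (by decide) (fun i j => by fin_cases i <;> fin_cases j <;> rfl) (by decide) (by decide)
    (by decide)

/-- a lattice of rank 6 and discriminant 23 -/
def A6 : Matrix (Fin 6) (Fin 6) ℤ :=
  !![2, -1, 0, 0, 0, 0; -1, 2, -1, 0, 0, -1; 0, -1, 2, -1, 0, 0; 0, 0, -1, 2, 0, 0;
    0, 0, 0, 0, 2, -1; 0, -1, 0, 0, -1, 4]

theorem b6_pd : PD (mf A6) where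
  symm := fun x y => by simp [mf_apply, A6, Fin.sum_univ_succ]; ring
  pos := fun x hx => by
    have e : mf A6 x x = (x 0 - x 5) ^ 2 + (x 1 - x 0 - x 5) ^ 2 + (x 2 - x 1) ^ 2 +
        (x 3 - x 2) ^ 2 + x 3 ^ 2 + (x 4 - x 5) ^ 2 + x 4 ^ 2 + x 5 ^ 2 := by
      simp [mf_apply, A6, Fin.sum_univ_succ]; ring
    rw [e]
    by_contra hc
    have a0 := sq_nonneg (x 0 - x 5)
    have a1 := sq_nonneg (x 1 - x 0 - x 5)
    have a2 := sq_nonneg (x 2 - x 1)
    have a3 := sq_nonneg (x 3 - x 2)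
    have a4 := sq_nonneg (x 3)
    have a5 := sq_nonneg (x 4 - x 5)
    have a6 := sq_nonneg (x 4)
    have a7 := sq_nonneg (x 5)
    have h5 : x 5 = 0 := pow_eq_zero_iff two_ne_zero |>.1 (by linarith)
    have h4 : x 4 = 0 := pow_eq_zero_iff two_ne_zero |>.1 (by linarith)
    have h3 : x 3 = 0 := pow_eq_zero_iff two_ne_zero |>.1 (by linarith)
    have h2 : x 3 - x 2 = 0 := pow_eq_zero_iff two_ne_zero |>.1 (by linarith)
    have h1 : x 2 - x 1 = 0 := pow_eq_zero_iff two_ne_zero |>.1 (by linarith)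
    have h0 : x 0 - x 5 = 0 := pow_eq_zero_iff two_ne_zero |>.1 (by linarith)
    refine hx (funext fun i => ?_)
    fin_cases i <;> simp <;> linarith

theorem b6_d23 :
    D23 (mf A6) (zl 6) (fun i => ((![6, 12, 8, 4, 5, 10] : Fin 6 → ℤ) i : ℚ) / 23) 5 :=
  D23.of_matrix (C := !![22, 21, 14, 7, 3, 6; 21, 42, 28, 14, 6, 12; 14, 28, 34, 17, 4, 8;
      7, 14, 17, 20, 2, 4; 3, 6, 4, 2, 14, 5; 6, 12, 8, 4, 5, 10]) (J := ![19, 15, 10, 5, 12, 1])
    (R := !![-4, -3, -2, -1, -3, 0; -9, -6, -4, -2, -6, 0; -6, -4, -2, -1, -4, 0;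
      -3, -2, -1, 0, -2, 0; -4, -3, -2, -1, -2, 0; -8, -6, -4, -2, -5, 0]) b6_pd
    (fun x => ⟨x 0 * x 0 + x 1 * x 1 + x 2 * x 2 + x 3 * x 3 + x 4 * x 4 + 2 * x 5 * x 5 -
        x 0 * x 1 - x 1 * x 2 - x 2 * x 3 - x 1 * x 5 - x 4 * x 5, by
      simp [A6, dotProduct, mulVec, Fin.sum_univ_succ]; ring⟩)
    (by decide) (fun i j => by fin_cases i <;> fin_cases j <;> rfl) (by decide) (by decide)
    (by decide)

/-- In rank 22 the discriminant form is opposite to that of the binary lattice. -/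
theorem D23.sign [FiniteDimensional ℚ V] {b : LinearMap.BilinForm ℚ V} {M : Submodule ℤ V}
    {m : V} {k : ℤ} (h : D23 b M m k) (hV : finrank ℚ V = 22) :
    ∃ j : ℤ, ¬ (23 : ℤ) ∣ j ∧ (23 : ℤ) ∣ k + j ^ 2 * 2 := by
  have key : ∀ r : ZMod 23, r ≠ 0 → ∃ j : ZMod 23, j ≠ 0 ∧ (r + j ^ 2 * 2 = 0 ∨
      r + j ^ 2 * 5 = 0) := by decide
  have hd : ∀ a : ℤ, (23 : ℤ) ∣ a ↔ (a : ZMod 23) = 0 := fun a =>
    (ZMod.intCast_zmod_eq_zero_iff_dvd a 23).symm
  obtain ⟨j, hj, e⟩ := key k fun e => h.ndvd ((hd _).2 e)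
  obtain ⟨j, rfl⟩ := ZMod.intCast_surjective j
  have hj' : ¬ (23 : ℤ) ∣ j := fun e => hj ((hd _).1 e)
  rcases e with e | e
  · exact ⟨j, hj', (hd _).2 (by push_cast; exact e)⟩
  · have := (glue_eu h (b6_d23.smul hj') ((hd _).2 (by push_cast; exact e))).four_dvd (m := 14)
      (by rw [Module.finrank_prod, hV]; simp)
    norm_num at this

end Cfsg.Lib.FT
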