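import Cfsg.Agent.Lib.FT.Emb

/-!
# Feit's theorem on rational representations of degree 23
-/

set_option autoImplicit false
set_option linter.unusedSectionVars false

namespace Cfsg.Lib.FT

open Module LinearMap Finset Cfsg.Lib.Leech MulAction

theorem b2_split (γ γ' : Fin 2 → ℚ) (p q ε : ℤ) (hε : ε * ε = 1) :
    (4 * p * p + 2 * p * q + 6 * q * q : ℚ) * mf A2 γ γ' =
      23 * mf A2 γ (gam (ε * q) (-(ε * p))) * mf A2 γ' (gam (ε * q) (-(ε * p))) +
        mf A2 γ (iv p q) * mf A2 γ' (iv p q) := by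
  have : (ε : ℚ) * ε = 1 := by exact_mod_cast hε
  simp only [b2_apply, gam, iv, Matrix.cons_val_zero, Matrix.cons_val_one]
  push_cast
  linear_combination (-23 * (q * γ 0 - p * γ 1) * (q * γ' 0 - p * γ' 1)) * this

variable {G : Type*} [Group G] [Finite G] {V : Type*} [AddCommGroup V] [Module ℚ V]
  [FiniteDimensional ℚ V] [DistribMulAction G V] [SMulCommClass G ℚ V]

namespace Core

variable {τ : ZMod 23 → G} {b : LinearMap.BilinForm ℚ V} {L : Submodule ℤ V} {v x0 : V} {D : ℤ}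
  (h : Core τ b L v x0 D)

theorem emb {j : ℤ} (hj : ¬ (23 : ℤ) ∣ j) (eu : EU (bsum (b.restrict (ker (b v))) (mf A2)) (h.NN j))
    {F : leechLattice →+ ker (b v) × (Fin 2 → ℚ)} (hF : ∀ z, z ∈ h.NN j ↔ ∃ l, F l = z)
    (hdot : ∀ x y, (dt(x, y) : ℚ) = 8 * (b (F x).1 (F y).1 + mf A2 (F x).2 (F y).2))
    (hU : F U0 = (0, iv 1 0)) (hW : F W0 = (0, iv 0 1)) {p q ε : ℤ} (hε : ε * ε = 1)
    (hpq : IsCoprime p q) (hD : D = 4 * p * p + 2 * p * q + 6 * q * q)
    (hc : (23 : ℤ) ∣ -(ε * p) - 6 * (ε * q) - j) :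
    ∃ E : leechLattice →+ V × ℚ, Emb b L D E (p • U0 + q • W0) ∧
      (∀ l, D * (E l).2 = mf A2 (F l).2 (iv p q)) ∧
      ∀ l, b v (E l).1 = 23 * mf A2 (F l).2 (gam (ε * q) (-(ε * p))) := by
  have d0 := h.d0
  have hε' : (ε : ℚ) * ε = 1 := by exact_mod_cast hε
  have hD' : (D : ℚ) = 4 * p * p + 2 * p * q + 6 * q * q := by exact_mod_cast hD
  set β := gam (ε * q) (-(ε * p)) with hβ
  have ββ : mf A2 β β = D / 23 := by
    rw [hβ, gam_gam, hD']; push_cast
    linear_combination ((4 * p * p + 2 * p * q + 6 * q * q) / 23 : ℚ) * hε'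
  have βw : mf A2 β (iv p q) = 0 := by rw [hβ, gam_iv]; push_cast; ring
  have ww : mf A2 (iv p q) (iv p q) = D := by rw [iv_iv, hD']; ring
  let Θ : ker (b v) × (Fin 2 → ℚ) →+ V × ℚ := AddMonoidHom.mk'
    (fun z => (z.1 + (mf A2 z.2 β / D) • v, mf A2 z.2 (iv p q) / D)) fun z z' => by
      ext
      · simp [add_div, add_smul]; abel
      · simp [add_div]
  have hΘ : ∀ z, Θ z = (z.1 + (mf A2 z.2 β / D) • v, mf A2 z.2 (iv p q) / D) := fun _ => rfl
  have key : ∀ z z', b z.1 z'.1 + mf A2 z.2 z'.2 = b (Θ z).1 (Θ z').1 + D * (Θ z).2 * (Θ z').2 :=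
    fun z z' => by
      have := b2_split z.2 z'.2 p q ε hε
      rw [← hD', ← hβ] at this
      simp only [hΘ, map_add, map_smul, LinearMap.add_apply, LinearMap.smul_apply, smul_eq_mul,
        h.pd.symm z.1 v, mem_ker.1 z.1.2, mem_ker.1 z'.1.2, h.nv]
      field_simp
      linarith
  have back : ∀ (y : V) (c : ℚ), Θ (h.pr y, (b v y / D) • β + c • iv p q) = (y, c) := fun y c => by
    rw [hΘ]
    simp only [map_add, map_smul, LinearMap.add_apply, LinearMap.smul_apply, smul_eq_mul, ββ, βw,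
      b2_pd.symm (iv p q) β, ww, pr_coe]
    ext
    · simp only [sub_add, ← sub_smul]
      rw [sub_eq_self, smul_eq_zero]; left; field_simp; ring
    · field_simp; simp
  refine ⟨Θ.comp F, ⟨fun x y => by rw [hdot, key]; rfl, fun x => ⟨fun hx => ?_, ?_⟩, ?_,
    fun z hz => ?_⟩, fun l => ?_, fun l => ?_⟩
  · obtain ⟨a, ha⟩ := h.ex x hx
    obtain ⟨l, hl⟩ := (hF _).1 (h.lift (j := j) hx ha (s := a * (ε * q)) (t := a * -(ε * p)) (by
      rw [show a * -(ε * p) - 6 * (a * (ε * q)) - a * j = a * (-(ε * p) - 6 * (ε * q) - j) by ring]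
      exact hc.mul_left a))
    refine ⟨l, ?_⟩
    rw [AddMonoidHom.comp_apply, hl, ← back x 0, ← smul_gam, ha, zero_smul, add_zero,
      mul_div_cancel_right₀ _ d0, Int.cast_smul_eq_zsmul]
  · rintro ⟨l, hl⟩
    obtain ⟨a', s, t, h1, h2, h3⟩ := h.unlift ((hF _).2 ⟨l, rfl⟩)
    rw [AddMonoidHom.comp_apply, hΘ, h2, Prod.mk.injEq, gam_iv, div_eq_zero_iff] at hl
    have h4 : s * p + t * q = 0 := by exact_mod_cast hl.2.resolve_right d0
    obtain ⟨u1, u2, hu⟩ := hpq
    have h5 : s = ε * (u2 * s - u1 * t) * (ε * q) := by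
      linear_combination u1 * h4 - s * hu - q * (u2 * s - u1 * t) * hε
    have h6 : t = ε * (u2 * s - u1 * t) * -(ε * p) := by
      linear_combination u2 * h4 - t * hu + p * (u2 * s - u1 * t) * hε
    generalize ε * (u2 * s - u1 * t) = a at h5 h6
    have h7 : (23 : ℤ) ∣ a - a' := by
      refine (prime23.dvd_or_dvd (b := j) ?_).resolve_right hj
      convert dvd_sub h3 (hc.mul_left a) using 1
      rw [h5, h6]; ring
    convert h.shift h1 h7 using 1
    rw [← hl.1, h5, h6, ← smul_gam, map_zsmul, LinearMap.smul_apply, ββ]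
    congr 2
    simp; field_simp
  · rw [AddMonoidHom.comp_apply, map_add, map_zsmul, map_zsmul, hU, hW, ← back 0 1]
    congr 1
    ext i
    · simp
    · fin_cases i <;> simp [iv]
  · obtain ⟨l, hl⟩ := (hF _).1 (eu.sd (mem_dual.2 fun z' hz' => by
      obtain ⟨l, rfl⟩ := (hF _).1 hz'
      have := key (h.pr z.1, (b v z.1 / D) • β + z.2 • iv p q) (F l)
      rw [back] at this
      rw [bsum_apply]
      exact this ▸ hz l : (h.pr z.1, (b v z.1 / D) • β + z.2 • iv p q) ∈ dual _ (h.NN j)))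
    exact ⟨l, by rw [AddMonoidHom.comp_apply, hl, back]⟩
  · rw [AddMonoidHom.comp_apply, hΘ]; field_simp
  · rw [AddMonoidHom.comp_apply, hΘ]
    simp only [map_add, map_smul, smul_eq_mul, mem_ker.1 (F l).1.2, h.nv]
    field_simp; simp

include h in
theorem final (H : Irr G V) (hev : ∀ x ∈ L, ∃ k : ℤ, b x x = 2 * k) (hr : ∀ x ∈ L, b x x ≠ 2)
    (h2 : (2 : ℤ) ∣ D) (h8 : ¬ (8 : ℤ) ∣ D) (h9 : ¬ (9 : ℤ) ∣ D) :
    (∃ f : G →* Multiplicative (ZMod 2) × Cfsg.Spor.Co2, Function.Injective f) ∨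
    (∃ f : G →* Multiplicative (ZMod 2) × Cfsg.Spor.Co3, Function.Injective f) := by
  obtain ⟨j, k, hj, hk, hjk, eu, F, hF, hdot, hU, hW⟩ := h.leech H hr
  have d0 := h.d0
  have dp := h.dpos
  have coord : ∀ (l : leechLattice) (s t : ℤ), nm(l) = 32 → dt(l, U0) = 8 * s → dt(l, W0) = 8 * t →
      (F l).2 = gam s t ∧ b (F l).1 (F l).1 = 4 - mf A2 (gam s t) (gam s t) := by
    intro l s t h1 h2 h3
    have a1 := hdot l U0
    have a2 := hdot l W0
    have a3 := hdot l l
    rw [← sqNorm_eq_dot, h1] at a3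
    rw [h2, hU] at a1
    rw [h3, hW] at a2
    simp only [ZeroMemClass.coe_zero, map_zero, zero_add] at a1 a2
    push_cast at a1 a2 a3
    have := gam_eq (γ := (F l).2) (s := s) (t := t) (by linarith) (by linarith)
    exact ⟨this, by rw [← this]; linarith⟩
  have hD : D = 2 ∨ D = 4 ∨ D = 6 ∨ D = 12 ∨ D = 26 := by
    obtain ⟨a1, a2⟩ := coord l1 0 0 l1_spec.1 l1_spec.2.1 l1_spec.2.2
    obtain ⟨a, s, t, h1, h3, h4⟩ := h.unlift ((hF _).2 ⟨l1, rfl⟩)
    have e1 := gam_iv s t 1 0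
    have e2 := gam_iv s t 0 1
    rw [← h3, a1, gam_iv] at e1 e2
    obtain rfl : s = 0 := by exact_mod_cast (by push_cast at e1; linarith : (s : ℚ) = 0)
    obtain rfl : t = 0 := by exact_mod_cast (by push_cast at e2; linarith : (t : ℚ) = 0)
    have yL : ((F l1).1 : V) ∈ L := by
      simpa using h.shift h1 (a' := 0) (by
        simp only [mul_zero, sub_self, zero_sub, dvd_neg] at h4 ⊢
        exact (prime23.dvd_or_dvd h4).resolve_right hj)
    rw [gam_gam] at a2
    norm_num at a2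
    obtain ⟨g, hg⟩ := H.exists_ne (G := G) (b := b) (v := v) (r := ((F l1).1 : V))
      (by rw [h.nv]; positivity) (by rintro e; rw [e] at a2; simp at a2)
    have xL := h.stab g _ yL
    have xn : b (g • ((F l1).1 : V)) (g • ((F l1).1 : V)) = 4 := by rw [h.inv, a2]
    generalize g • ((F l1).1 : V) = x at hg xL xn
    clear h1 h4
    obtain ⟨a, ha⟩ := h.ex x xL
    have a0 : a ≠ 0 := by rintro rfl; exact hg (by simpa using ha)
    obtain ⟨s, t, q, c1, c2, c3⟩ := table (a * j)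
    obtain ⟨l, hl⟩ := (hF _).1 (h.lift xL ha c1)
    have e3 := hdot l l
    rw [← sqNorm_eq_dot, hl, h.b_pr, xn, ha, gam_gam] at e3
    have c2' : (6 : ℚ) * s * s - s * t - t * s + 4 * t * t = q := by exact_mod_cast c2
    rw [c2'] at e3
    obtain ⟨n, hn⟩ := sixteen_dvd_sqNorm l.2
    have hn2 : 2 ≤ n := by
      by_cases e : l = 0
      · exfalso
        have := h.b_pr x x
        rw [e, map_zero] at hl
        rw [← show (0 : ker (b v)) = h.pr x from congrArg Prod.fst hl, xn, ha] at this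
        have e4 : a * (a * D) = 23 * 4 := by
          have : (a : ℚ) * (a * D) = 23 * 4 := by
            simp at this; field_simp at this; linarith
          exact_mod_cast this
        have : (23 : ℤ) ∣ a := (prime23.dvd_or_dvd ⟨4, e4⟩).elim id fun e =>
          (prime23.dvd_or_dvd e).resolve_right h.nd
        obtain ⟨m, rfl⟩ := this
        have : 4 = 23 * (m * m * D) := by linarith
        omega
      · have := min_sqNorm l.2 (by simpa using e); omega
    rw [hn] at e3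
    have e5 : a ^ 2 * D = 92 - 46 * n + q := by
      have : (a : ℚ) ^ 2 * D = 92 - 46 * n + q := by
        push_cast at e3; field_simp at e3; linarith
      exact_mod_cast this
    have p1 : 0 < a ^ 2 * D := by positivity
    have p3 : a ^ 2 * D ≤ 48 := by omega
    have p4 : a ≤ 6 := by nlinarith
    have p5 : -6 ≤ a := by nlinarith
    interval_cases a <;> omega
  obtain ⟨m, hm⟩ := hev x0 h.x0L
  have hjD : ∀ s t : ℤ, 6 * s * s - s * t - t * s + 4 * t * t = D →
      ∃ ε : ℤ, ε * ε = 1 ∧ (23 : ℤ) ∣ ε * (t - 6 * s) - j := fun s t e => by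
    rw [h.b_pr, hm, h.x0v] at hk
    have e1 : 46 * m - D = 2 * k := by
      have : (46 : ℚ) * m - D = 2 * k := by field_simp at hk; linarith
      exact_mod_cast this
    obtain ⟨u, hu⟩ := hjk
    have : (23 : ℤ) ∣ 4 * ((t - 6 * s - j) * (-(t - 6 * s) - j)) :=
      ⟨2 * u - 2 * m + 2 * s * t - 6 * s * s, by linear_combination 2 * hu - e + e1⟩
    rcases prime23.dvd_or_dvd ((prime23.dvd_or_dvd this).resolve_left (by norm_num)) with a | a
    · exact ⟨1, rfl, by simpa using a⟩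
    · exact ⟨-1, rfl, by simpa using a⟩
  have main : ∀ p q : ℤ, IsCoprime p q → D = 4 * p * p + 2 * p * q + 6 * q * q →
      ∃ E : leechLattice →+ V × ℚ, Emb b L D E (p • U0 + q • W0) ∧
        D * (E U0).2 = (4 * p + q : ℤ) ∧ D * (E W0).2 = (p + 6 * q : ℤ) ∧
        (p + q ≠ 0 → (E (W0 - U0)).1 ≠ 0) := fun p q hpq e => by
    obtain ⟨ε, hε, hc⟩ := hjD q (-p) (by rw [e]; ring)
    obtain ⟨E, h1, h3, h4⟩ := h.emb hj eu hF hdot hU hW hε hpq e (by convert hc using 1; ring)
    refine ⟨E, h1, by rw [h3, hU, iv_iv]; simp, by rw [h3, hW, iv_iv]; simp, fun h5 h6 => h5 ?_⟩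
    have := h4 (W0 - U0)
    rw [h6, map_sub, hU, hW, Prod.snd_sub, map_sub, LinearMap.sub_apply, b2_pd.symm, gam_iv,
      b2_pd.symm, gam_iv] at this
    have h7 : ε * (p + q) = 0 := by
      have : (ε : ℚ) * (p + q) = 0 := by simp at this; linarith
      exact_mod_cast this
    linear_combination ε * h7 - (p + q) * hε
  rcases hD with rfl | rfl | rfl | rfl | rfl
  · exfalso
    obtain ⟨a1, a2⟩ := coord l2 (-2) 2 l2_spec.1 (l2_spec.2.1.trans (by norm_num)) l2_spec.2.2
    obtain ⟨a, -, -, h1, -, -⟩ := h.unlift ((hF _).2 ⟨l2, rfl⟩)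
    rw [gam_gam] at a2
    have nf : ∀ c : ℤ, b ((F l2).1 + (c / 23 : ℚ) • v) ((F l2).1 + (c / 23 : ℚ) • v) =
        (44 + 2 * c ^ 2) / 23 := fun c => by
      simp only [map_add, map_smul, LinearMap.add_apply, LinearMap.smul_apply, smul_eq_mul, a2,
        h.pd.symm (F l2).1 v, mem_ker.1 (F l2).1.2, h.nv]
      push_cast; ring
    obtain ⟨n, hn⟩ := hev _ h1
    rw [nf] at hn
    have e1 : (1 - a) * (-1 - a) = 23 * (n - 1) := by
      have : (1 - a : ℚ) * (-1 - a) = 23 * (n - 1) := by linarith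
      exact_mod_cast this
    rcases prime23.dvd_or_dvd ⟨_, e1⟩ with e | e
    · exact hr _ (h.shift h1 e) (by rw [nf]; norm_num)
    · exact hr _ (h.shift h1 e) (by rw [nf]; norm_num)
  · obtain ⟨E, h1, -, h3, -⟩ := main 1 0 isCoprime_one_left (by norm_num)
    obtain ⟨ψ, h4, h5⟩ := h1.hom H h.toGd (by norm_num) h3 (n0 := 6) nm_W0 (by norm_num)
      fun i n a1 a2 a3 a4 => by
        have : -2 ≤ i := by omega
        have : i ≤ 2 := by omega
        interval_cases i <;> omega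
    exact h1.final H h4 h5 (s := U0) (r := 0) (by simp) (Or.inl nm_U0)
  · obtain ⟨E, h1, h3, -, -⟩ := main 0 1 isCoprime_one_right (by norm_num)
    obtain ⟨ψ, h4, h5⟩ := h1.hom H h.toGd (by norm_num) h3 (n0 := 4) nm_U0 (by norm_num)
      fun i n a1 a2 a3 a4 => by
        have : -3 ≤ i := by omega
        have : i ≤ 3 := by omega
        interval_cases i <;> omega
    exact h1.final H h4 h5 (s := W0) (r := 0) (by simp) (Or.inr (Or.inl nm_W0))
  · obtain ⟨E, h1, h3, -, h6⟩ := main 1 1 isCoprime_one_right (by norm_num)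
    obtain ⟨ψ, h4, h5⟩ := h1.hom H h.toGd (by norm_num) h3 (n0 := 4) nm_U0 (by norm_num)
      fun i n a1 a2 a3 a4 => by
        have : -6 ≤ i := by omega
        have : i ≤ 6 := by omega
        interval_cases i <;> omega
    exact h1.final H h4 h5 (s := W0 - U0) (r := -U0) (by simp; abel)
      (Or.inr (Or.inr ⟨by simp [W0], h6 (by norm_num)⟩))
  · obtain ⟨E, h1, h3, -, -⟩ := main 2 1 isCoprime_one_right (by norm_num)
    obtain ⟨ψ, h4, h5⟩ := h1.hom H h.toGd (by norm_num) h3 (n0 := 4) nm_U0 (by norm_num)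
      fun i n a1 a2 a3 a4 => by
        have : -13 ≤ i := by omega
        have : i ≤ 13 := by omega
        interval_cases i <;> omega
    exact h1.final H h4 h5 (s := W0) (r := -U0) (by simp [two_zsmul]; abel) (Or.inr (Or.inl nm_W0))

end Core

theorem Irr.feit (H : Irr G V) :
    (∃ f : G →* Multiplicative (ZMod 2) × Cfsg.Spor.Co2, Function.Injective f) ∨
    (∃ f : G →* Multiplicative (ZMod 2) × Cfsg.Spor.Co3, Function.Injective f) := by
  obtain ⟨b, L, hm⟩ := exists_mn G V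
  obtain ⟨τ, v, x0, d, h, h4, h9⟩ := hm.core H
  have hr := h.no_root H h4
  by_cases hd : (2 : ℤ) ∣ d
  · refine h.final H (fun x hx => ?_) hr hd (by omega) h9
    obtain ⟨a, ha⟩ := h.ex x hx
    obtain ⟨k, hk⟩ := h.norm_mod hx ha
    obtain ⟨e, rfl⟩ := hd
    exact ⟨a ^ 2 * e + k, by rw [hk]; push_cast; ring⟩
  · obtain ⟨L', hle, h', hev⟩ := h.even_sub hd
    exact h'.final H hev (fun x hx => hr x (hle hx)) (by omega) (by omega) (by omega)

end Cfsg.Lib.FT
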