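import Cfsg.Agent.Lib.FT.Ord

/-!
# Invariant lattices of minimal discriminant
-/

set_option autoImplicit false
set_option linter.unusedSectionVars false

namespace Cfsg.Lib.FT

open Module LinearMap

section index

variable {V : Type*} [AddCommGroup V] [Module ℚ V] [FiniteDimensional ℚ V]

/-- relative index of lattices -/
noncomputable def ix (A B : Submodule ℤ V) : ℕ := A.toAddSubgroup.relIndex B.toAddSubgroup

theorem ix_mul {A B C : Submodule ℤ V} (h : A ≤ B) (h' : B ≤ C) : ix A B * ix B C = ix A C :=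
  AddSubgroup.relIndex_mul_relIndex _ _ _ h h'

theorem ix_eq_one {A B : Submodule ℤ V} : ix A B = 1 ↔ B ≤ A := AddSubgroup.relIndex_eq_one

theorem ix_sup {L A B : Submodule ℤ V} (hA : L ≤ A) (hB : L ≤ B) (h : A ⊓ B ≤ L) :
    ix L (A ⊔ B) = ix L A * ix L B := by
  rw [← ix_mul hB le_sup_right, mul_comm]
  congr 1
  unfold ix
  rw [Submodule.sup_toAddSubgroup, AddSubgroup.relIndex_sup_right,
    ← AddSubgroup.inf_relIndex_right]
  congr 1
  exact le_antisymm (fun x hx => h ⟨hx.2, hx.1⟩) fun x hx => ⟨hB hx, hA hx⟩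

/-- multiples of a lattice -/
def sc (n : ℕ) (L : Submodule ℤ V) : Submodule ℤ V where
  carrier := {y | ∃ x ∈ L, (n : ℤ) • x = y}
  zero_mem' := ⟨0, L.zero_mem, smul_zero _⟩
  add_mem' := by
    rintro _ _ ⟨x, hx, rfl⟩ ⟨y, hy, rfl⟩
    exact ⟨x + y, add_mem hx hy, smul_add _ _ _⟩
  smul_mem' := by
    rintro c _ ⟨x, hx, rfl⟩
    exact ⟨c • x, L.smul_mem _ hx, smul_comm _ _ _⟩

theorem mem_sc {n : ℕ} {L : Submodule ℤ V} {y : V} : y ∈ sc n L ↔ ∃ x ∈ L, (n : ℤ) • x = y :=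
  Iff.rfl

theorem sc_eq (n : ℕ) (L : Submodule ℤ V) :
    (sc n L).toAddSubgroup = L.toAddSubgroup.map (nsmulAddMonoidHom n) := by
  ext y
  simp [mem_sc]

theorem sc_le (n : ℕ) (L : Submodule ℤ V) : sc n L ≤ L := by
  rintro _ ⟨x, hx, rfl⟩; exact L.smul_mem _ hx

theorem ix_sc (n : ℕ) (L : Submodule ℤ V) [L.IsLattice ℚ] : ix (sc n L) L = n ^ finrank ℚ V := by
  rw [ix, sc_eq, ← finrank_lat L]
  have : Module.Free ℤ L.toAddSubgroup.toIntSubmodule := inferInstanceAs (Module.Free ℤ L)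
  have : Module.Finite ℤ L.toAddSubgroup.toIntSubmodule := inferInstanceAs (Module.Finite ℤ L)
  exact AddSubgroup.relIndex_map_nsmul n _

theorem ix_sc_sc {n : ℕ} (hn : n ≠ 0) (A B : Submodule ℤ V) : ix (sc n A) (sc n B) = ix A B := by
  rw [ix, sc_eq, sc_eq]
  refine AddSubgroup.relIndex_map_map_of_injective _ _ fun x y e => ?_
  simp only [nsmulAddMonoidHom_apply, ← Nat.cast_smul_eq_nsmul ℚ] at e
  exact smul_right_injective V (Nat.cast_ne_zero.2 hn) e

theorem exists_mul_mem (L : Submodule ℤ V) [L.IsLattice ℚ] (x : V) :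
    ∃ n : ℕ, n ≠ 0 ∧ (n : ℤ) • x ∈ L := by
  have hx : x ∈ Submodule.span ℚ (L : Set V) := by
    rw [Submodule.IsLattice.span_eq_top]; trivial
  refine Submodule.span_induction (fun y hy => ⟨1, one_ne_zero, by simpa using hy⟩)
    ⟨1, one_ne_zero, by simp⟩ ?_ ?_ hx
  · rintro y z - - ⟨m, hm, h1⟩ ⟨n, hn, h2⟩
    refine ⟨m * n, mul_ne_zero hm hn, ?_⟩
    push_cast
    rw [smul_add]
    exact add_mem (by rw [mul_comm, mul_smul]; exact L.smul_mem _ h1)
      (by rw [mul_smul]; exact L.smul_mem _ h2)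
  · rintro c y - ⟨m, hm, h1⟩
    refine ⟨c.den * m, mul_ne_zero c.den_nz hm, ?_⟩
    have : ((c.den * m : ℕ) : ℤ) • c • y = c.num • (m : ℤ) • y := by
      rw [← Int.cast_smul_eq_zsmul ℚ, ← Int.cast_smul_eq_zsmul ℚ, ← Int.cast_smul_eq_zsmul ℚ,
        smul_smul, smul_smul]
      congr 1
      push_cast
      rw [← Rat.mul_den_eq_num]; ring
    rw [this]
    exact L.smul_mem _ h1

theorem exists_sc_le (A : Submodule ℤ V) [A.IsLattice ℚ] {B : Submodule ℤ V} (hB : B.FG) :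
    ∃ n : ℕ, n ≠ 0 ∧ sc n B ≤ A := by
  refine Submodule.fg_induction (motive := fun B _ => ∃ n : ℕ, n ≠ 0 ∧ sc n B ≤ A) ?_ ?_ B hB
  · intro x
    obtain ⟨n, hn, h⟩ := exists_mul_mem A x
    refine ⟨n, hn, ?_⟩
    rintro _ ⟨y, hy, rfl⟩
    obtain ⟨c, rfl⟩ := Submodule.mem_span_singleton.1 hy
    show (n : ℤ) • c • x ∈ A
    rw [smul_comm]; exact A.smul_mem _ h
  · rintro B1 B2 - - ⟨m, hm, h1⟩ ⟨n, hn, h2⟩
    refine ⟨m * n, mul_ne_zero hm hn, ?_⟩
    rintro _ ⟨y, hy, rfl⟩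
    obtain ⟨y1, a1, y2, a2, rfl⟩ := Submodule.mem_sup.1 hy
    show ((m * n : ℕ) : ℤ) • (y1 + y2) ∈ A
    push_cast
    rw [smul_add]
    exact add_mem (by rw [mul_comm, mul_smul]; exact A.smul_mem _ (h1 ⟨_, a1, rfl⟩))
      (by rw [mul_smul]; exact A.smul_mem _ (h2 ⟨_, a2, rfl⟩))

theorem ix_ne_zero {A B : Submodule ℤ V} [A.IsLattice ℚ] [B.IsLattice ℚ] (h : A ≤ B) :
    ix A B ≠ 0 := by
  obtain ⟨n, hn, h1⟩ := exists_sc_le A (Submodule.IsLattice.fg (A := ℚ) (M := B))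
  have := ix_mul h1 h
  rw [ix_sc] at this
  intro e
  rw [e, mul_zero] at this
  exact pow_ne_zero _ hn this.symm

theorem lat_between {A B C : Submodule ℤ V} [A.IsLattice ℚ] [C.IsLattice ℚ] (h : A ≤ B)
    (h' : B ≤ C) : B.IsLattice ℚ :=
  Submodule.IsLattice.of_le_of_isLattice_of_fg ℚ h
    (Submodule.FG.of_le (Submodule.IsLattice.fg (A := ℚ) (M := C)) h')

/-- the `q`-part of the discriminant group -/
def Lq (b : LinearMap.BilinForm ℚ V) (L : Submodule ℤ V) (q : ℕ) : Submodule ℤ V where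
  carrier := {x | x ∈ dual b L ∧ (q : ℤ) • x ∈ L}
  zero_mem' := ⟨zero_mem _, by simp⟩
  add_mem' := fun hx hy => ⟨add_mem hx.1 hy.1, by rw [smul_add]; exact add_mem hx.2 hy.2⟩
  smul_mem' := fun c _ hx => ⟨Submodule.smul_mem _ _ hx.1, by
    rw [smul_comm]; exact L.smul_mem _ hx.2⟩

theorem Lq_le {b : LinearMap.BilinForm ℚ V} {L : Submodule ℤ V} {q : ℕ} : Lq b L q ≤ dual b L :=
  fun _ hx => hx.1

theorem mem_Lq {b : LinearMap.BilinForm ℚ V} {L : Submodule ℤ V} {q : ℕ} {x : V} :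
    x ∈ Lq b L q ↔ x ∈ dual b L ∧ (q : ℤ) • x ∈ L := Iff.rfl

end index

variable {G : Type*} [Group G] [Finite G] {V : Type*} [AddCommGroup V] [Module ℚ V]
  [FiniteDimensional ℚ V] [DistribMulAction G V] [SMulCommClass G ℚ V]

variable (G) in
/-- invariant integral lattices -/
structure Gd (b : LinearMap.BilinForm ℚ V) (L : Submodule ℤ V) : Prop where
  pd : PD b
  inv : Inv G b
  lat : L.IsLattice ℚ
  stab : ∀ g : G, ∀ x ∈ L, g • x ∈ L
  int : L ≤ dual b L

theorem dual_stab {b : LinearMap.BilinForm ℚ V} (inv : Inv G b) {L : Submodule ℤ V}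
    (stab : ∀ g : G, ∀ x ∈ L, g • x ∈ L) (g : G) : ∀ x ∈ dual b L, g • x ∈ dual b L :=
  fun x hx => mem_dual.2 fun y hy => by
    rw [inv.left]; exact mem_dual.1 hx _ (stab _ _ hy)

variable (G V) in
theorem exists_gd : ∃ (b : LinearMap.BilinForm ℚ V) (L : Submodule ℤ V), Gd G b L := by
  have := Fintype.ofFinite G
  let e := Module.finBasis ℚ V
  let b0 : LinearMap.BilinForm ℚ V := ∑ g : G, ∑ i,
    (LinearMap.mul ℚ ℚ).compl₁₂ (e.coord i ∘ₗ act V g) (e.coord i ∘ₗ act V g)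
  have hb0 : ∀ x y, b0 x y = ∑ g : G, ∑ i, e.coord i (g • x) * e.coord i (g • y) := fun x y => by
    simp only [b0, LinearMap.sum_apply]; rfl
  let s : G × Fin (finrank ℚ V) → V := fun p => p.1 • e p.2
  obtain ⟨⟨n, hn⟩, hs⟩ := IsLocalization.exist_integer_multiples_of_finite (nonZeroDivisors ℤ)
    fun p : (G × Fin (finrank ℚ V)) × (G × Fin (finrank ℚ V)) => b0 (s p.1) (s p.2)
  have hn0 : (n : ℚ) ≠ 0 := by exact_mod_cast nonZeroDivisors.ne_zero hn
  refine ⟨((n : ℚ) ^ 2) • b0, Submodule.span ℤ (Set.range s), ⟨fun x y => ?_, fun x hx => ?_⟩,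
    fun g x y => ?_, ⟨Submodule.fg_span (Set.finite_range _), ?_⟩, fun g x hx => ?_, ?_⟩
  · simp only [LinearMap.smul_apply, hb0, mul_comm]
  · simp only [LinearMap.smul_apply, hb0, smul_eq_mul]
    refine mul_pos (by positivity) (Finset.sum_pos' (fun g _ => Finset.sum_nonneg fun i _ =>
      mul_self_nonneg _) ⟨1, Finset.mem_univ _, ?_⟩)
    obtain ⟨i, hi⟩ : ∃ i, e.coord i x ≠ 0 := by
      by_contra hc
      push Not at hc
      exact hx ((e.forall_coord_eq_zero_iff).1 hc)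
    exact Finset.sum_pos' (fun i _ => mul_self_nonneg _)
      ⟨i, Finset.mem_univ _, by rw [one_smul]; exact mul_self_pos.2 hi⟩
  · simp only [LinearMap.smul_apply, hb0, ← mul_smul]
    congr 1
    exact Equiv.sum_comp (Equiv.mulRight g) fun k => ∑ i, e.coord i (k • x) * e.coord i (k • y)
  · rw [Submodule.span_span_of_tower, eq_top_iff, ← e.span_eq]
    refine Submodule.span_mono ?_
    rintro _ ⟨i, rfl⟩
    exact ⟨(1, i), one_smul _ _⟩
  · refine Submodule.span_induction ?_ (by simp) (fun a c _ _ ha hc => ?_) (fun a c _ hc => ?_) hx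
    · rintro _ ⟨p, rfl⟩
      exact Submodule.subset_span ⟨(g * p.1, p.2), mul_smul _ _ _⟩
    · rw [smul_add]; exact add_mem ha hc
    · rw [smul_comm]; exact Submodule.smul_mem _ _ hc
  · rw [Submodule.span_le]
    rintro _ ⟨p, rfl⟩
    refine mem_dual.2 fun y hy => ?_
    refine Submodule.span_induction ?_ (by simp) (fun a c _ _ ha hc => ?_) (fun a c _ hc => ?_) hy
    · rintro _ ⟨p', rfl⟩
      obtain ⟨k, hk⟩ := hs (p, p')
      refine mem_ZZ.2 ⟨n * k, ?_⟩
      simp only [LinearMap.smul_apply, smul_eq_mul]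
      push_cast
      have : (k : ℚ) = n * b0 (s p) (s p') := by simpa using hk
      rw [this]; ring
    · rw [map_add]; exact add_mem ha hc
    · rw [map_zsmul]; exact zsmul_mem hc _

variable (G) in
/-- invariant integral lattices of minimal discriminant -/
structure Mn (b : LinearMap.BilinForm ℚ V) (L : Submodule ℤ V) : Prop extends Gd G b L where
  min : ∀ (b' : LinearMap.BilinForm ℚ V) (L' : Submodule ℤ V), Gd G b' L' →
    ix L (dual b L) ≤ ix L' (dual b' L')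

variable (G V) in
theorem exists_mn : ∃ (b : LinearMap.BilinForm ℚ V) (L : Submodule ℤ V), Mn G b L := by
  obtain ⟨b0, L0, h0⟩ := exists_gd G V
  obtain ⟨⟨b, L⟩, h, hm⟩ := (measure fun p : LinearMap.BilinForm ℚ V × Submodule ℤ V =>
    ix p.2 (dual p.1 p.2)).wf.has_min {p | Gd G p.1 p.2} ⟨(b0, L0), h0⟩
  exact ⟨b, L, h, fun b' L' h' => not_lt.1 (hm (b', L') h')⟩

namespace Gd

variable {b : LinearMap.BilinForm ℚ V} {L : Submodule ℤ V} (h : Gd G b L)
include h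

theorem le_Lq (q : ℕ) : L ≤ Lq b L q := fun _ hx => ⟨h.int hx, L.smul_mem _ hx⟩

theorem Lq_stab (q : ℕ) (g : G) : ∀ x ∈ Lq b L q, g • x ∈ Lq b L q := fun x hx =>
  ⟨dual_stab h.inv h.stab g x hx.1, by
    show (q : ℤ) • g • x ∈ L
    rw [smul_comm]; exact h.stab _ _ hx.2⟩

theorem Lq_lat (q : ℕ) : (Lq b L q).IsLattice ℚ :=
  have := h.lat
  have := h.pd.dual_lat L
  lat_between (h.le_Lq q) Lq_le

theorem ZZ {x y : V} (hx : x ∈ L) (hy : y ∈ L) : b x y ∈ ZZ := mem_dual.1 (h.int hx) y hy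

end Gd

namespace Mn

variable {b : LinearMap.BilinForm ℚ V} {L : Submodule ℤ V} (h : Mn G b L)
include h

theorem sqf (q : ℕ) {x : V} (hx : x ∈ dual b L) (h2 : ((q * q : ℕ) : ℤ) • x ∈ L) :
    (q : ℤ) • x ∈ L := by
  have := h.lat
  have := h.pd.dual_lat L
  let L' := L ⊔ sc q (Lq b L (q * q))
  have h1 : L' ≤ dual b L := sup_le h.int ((sc_le _ _).trans Lq_le)
  have : L'.IsLattice ℚ := lat_between le_sup_left h1
  have := h.pd.dual_lat L'
  have h3 : L' ≤ dual b L' := fun y hy => mem_dual.2 fun z hz => by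
    obtain ⟨z1, a1, _, ⟨z2, a2, rfl⟩, rfl⟩ := Submodule.mem_sup.1 hz
    rw [map_add]
    refine add_mem (mem_dual.1 (h1 hy) _ a1) ?_
    obtain ⟨y1, c1, _, ⟨y2, c2, rfl⟩, rfl⟩ := Submodule.mem_sup.1 hy
    rw [map_add, LinearMap.add_apply]
    refine add_mem (by
      rw [h.pd.symm]; exact mem_dual.1 (Submodule.smul_mem _ _ a2.1) _ c1) ?_
    have := mem_dual.1 c2.1 _ a2.2
    simp only [map_zsmul, LinearMap.smul_apply, zsmul_eq_mul] at this ⊢
    push_cast at this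
    rwa [← mul_assoc]
  have h4 := h.min b L' ⟨h.pd, h.inv, inferInstance, fun g y hy => by
    obtain ⟨y1, c1, _, ⟨y2, c2, rfl⟩, rfl⟩ := Submodule.mem_sup.1 hy
    rw [smul_add]
    exact Submodule.add_mem_sup (h.stab _ _ c1) ⟨_, h.Lq_stab _ g _ c2, (smul_comm _ _ _).symm⟩, h3⟩
  have h5 : dual b L' ≤ dual b L := dual_anti le_sup_left
  rw [← ix_mul le_sup_left h1, ← ix_mul h3 h5] at h4
  have a := ix_ne_zero (le_sup_left : L ≤ L')
  have c := ix_ne_zero h3
  have d := ix_ne_zero h5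
  have e : ix L L' = 1 := by
    by_contra hc
    have : 2 * (ix L' (dual b L') * 1) ≤ ix L L' * (ix L' (dual b L') *
        ix (dual b L') (dual b L)) :=
      Nat.mul_le_mul (Nat.lt_of_le_of_ne (Nat.pos_of_ne_zero a) (Ne.symm hc))
        (Nat.mul_le_mul_left _ (Nat.pos_of_ne_zero d))
    omega
  exact ix_eq_one.1 e (Submodule.mem_sup_right ⟨x, ⟨hx, h2⟩, rfl⟩)

theorem dual_le {P : Submodule ℤ V} (hP : ∀ q : ℕ, q.Prime → Lq b L q ≤ P) : dual b L ≤ P := by
  have := h.lat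
  intro y hy
  obtain ⟨n, hn, h1⟩ := exists_mul_mem L y
  induction n using Nat.strong_induction_on generalizing y with
  | _ n ih =>
    by_cases h0 : n = 1
    · subst h0
      exact hP 2 Nat.prime_two (h.le_Lq 2 (by simpa using h1))
    obtain ⟨q, hq, m, rfl⟩ := Nat.exists_prime_and_dvd h0
    have hm : m ≠ 0 := right_ne_zero_of_mul hn
    have hlt : m < q * m := lt_mul_of_one_lt_left (Nat.pos_of_ne_zero hm) hq.one_lt
    by_cases hd : q ∣ m
    · obtain ⟨k, rfl⟩ := hd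
      refine ih (q * k) hlt hy hm ?_
      have := h.sqf q (x := (k : ℤ) • y) (Submodule.smul_mem _ _ hy) (by
        rw [smul_smul]; convert h1 using 2; push_cast; ring)
      rw [smul_smul] at this
      exact_mod_cast this
    · refine mem_of_coprime (Nat.isCoprime_iff_coprime.2 ((Nat.Prime.coprime_iff_not_dvd hq).2 hd))
        (ih m hlt (Submodule.smul_mem _ _ hy) hm ?_) (hP q hq ⟨Submodule.smul_mem _ _ hy, ?_⟩)
      · rw [smul_smul]; convert h1 using 2; push_cast; ring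
      · show (q : ℤ) • (m : ℤ) • y ∈ L
        rw [smul_smul]; convert h1 using 2; push_cast; ring

theorem Lq_inf {q : ℕ} (hq : q.Prime) : Lq b L q ⊓ dual b (Lq b L q) ≤ L := by
  have := h.lat
  rintro x ⟨h1, h2⟩
  rw [← h.pd.dual_dual L]
  refine mem_dual.2 fun y hy => ?_
  have := h.dual_le (P := dual b (Submodule.span ℤ {x})) (fun p hp z hz => mem_dual.2 ?_) hy
  · rw [h.pd.symm]; exact mem_dual.1 this x (Submodule.mem_span_singleton_self _)
  intro w hw
  obtain ⟨c, rfl⟩ := Submodule.mem_span_singleton.1 hw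
  rw [map_zsmul]
  refine zsmul_mem ?_ _
  by_cases e : p = q
  · subst e; rw [h.pd.symm]; exact mem_dual.1 h2 z hz
  · refine ZZ_of_coprime (Nat.isCoprime_iff_coprime.2 ((Nat.coprime_primes hp hq).2 e)) ?_ ?_
    · have := mem_dual.1 h1.1 _ hz.2
      simp only [map_zsmul, zsmul_eq_mul] at this
      rwa [h.pd.symm]
    · have := mem_dual.1 hz.1 _ h1.2
      simpa only [map_zsmul, zsmul_eq_mul] using this

theorem half {q : ℕ} (hq : q.Prime) : ix L (Lq b L q) ≤ ix (sc q (Lq b L q)) L ∧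
    ix (sc q (Lq b L q)) L * ix L (Lq b L q) = q ^ finrank ℚ V := by
  have := h.lat
  have := h.pd.dual_lat L
  have := h.Lq_lat q
  have := h.pd.dual_lat (Lq b L q)
  have hq0 : (q : ℚ) ≠ 0 := Nat.cast_ne_zero.2 hq.ne_zero
  have h1 : sc q (Lq b L q) ≤ L := by rintro _ ⟨x, hx, rfl⟩; exact hx.2
  have h2 : L ≤ dual b (Lq b L q) := fun x hx => mem_dual.2 fun y hy => by
    rw [h.pd.symm]; exact mem_dual.1 hy.1 x hx
  have h3 : dual b (Lq b L q) ≤ dual b L := dual_anti (h.le_Lq q)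
  refine ⟨?_, by rw [ix_mul h1 (h.le_Lq q), ix_sc]⟩
  have h4 := h.min ((q : ℚ) • b) (Lq b L q) ⟨⟨fun x y => by simp [h.pd.symm x y], fun x hx => by
    simpa using mul_pos (Nat.cast_pos.2 hq.pos) (h.pd.pos x hx)⟩, fun g x y => by
      simp [h.inv g x y], inferInstance, h.Lq_stab q, fun x hx => mem_dual.2 fun y hy => by
      simpa using mem_dual.1 hx.1 _ hy.2⟩
  have h5 : sc q (dual ((q : ℚ) • b) (Lq b L q)) = dual b (Lq b L q) := by
    refine le_antisymm ?_ fun y hy => ⟨(q : ℚ)⁻¹ • y, mem_dual.2 fun z hz => ?_, ?_⟩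
    · rintro _ ⟨y, hy, rfl⟩
      exact mem_dual.2 fun z hz => by simpa using mem_dual.1 hy z hz
    · simpa [← mul_assoc, hq0] using mem_dual.1 hy z hz
    · show (q : ℤ) • (q : ℚ)⁻¹ • y = y
      rw [← Int.cast_smul_eq_zsmul ℚ, smul_smul]; simp [hq0]
  rw [← ix_sc_sc hq.ne_zero (Lq b L q), h5, ← ix_mul h1 h2,
    ← ix_mul ((h.le_Lq q).trans le_sup_left) (sup_le Lq_le h3 :
      Lq b L q ⊔ dual b (Lq b L q) ≤ dual b L), ix_sup (h.le_Lq q) h2 (h.Lq_inf hq)] at h4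
  have a := ix_ne_zero h2
  have c := ix_ne_zero (sup_le Lq_le h3 : Lq b L q ⊔ dual b (Lq b L q) ≤ dual b L)
  exact Nat.le_of_mul_le_mul_right ((Nat.le_mul_of_pos_right _ (Nat.pos_of_ne_zero c)).trans h4)
    (Nat.pos_of_ne_zero a)

end Mn

end Cfsg.Lib.FT
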