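import Cfsg.Agent.Lib.FT.Basic

/-!
# Elements of prime order
-/

set_option autoImplicit false
set_option linter.unusedSectionVars false

namespace Cfsg.Lib.FT

open Module LinearMap Polynomial

variable {G : Type*} [Group G] [Finite G] {V : Type*} [AddCommGroup V] [Module ℚ V]
  [FiniteDimensional ℚ V] [DistribMulAction G V] [SMulCommClass G ℚ V]

theorem cyc_dvd (T : Module.End ℚ V) {Φ q : ℚ[X]} (hΦ : Irreducible Φ) (h : aeval T (Φ * q) = 0)
    (hq : aeval T q ≠ 0) : Φ ∣ T.charpoly := by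
  rcases hΦ.isCoprime_or_dvd (minpoly ℚ T) with a | a
  · exact absurd (minpoly.dvd_iff.1 (a.symm.dvd_of_dvd_mul_left (minpoly.dvd ℚ T h))) hq
  · exact a.trans (LinearMap.minpoly_dvd_charpoly T)

namespace Irr

variable (H : Irr G V)
include H

theorem act_inj {g : G} (h : act V g = 1) : g = 1 :=
  H.faith g fun x => LinearMap.congr_fun h x

theorem totient_le {p k : ℕ} [Fact p.Prime] {g : G} (h : g ^ p ^ (k + 1) = 1)
    (h' : g ^ p ^ k ≠ 1) : cyclotomic (p ^ (k + 1)) ℚ ∣ (act V g).charpoly :=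
  cyc_dvd _ (q := X ^ p ^ k - 1) (cyclotomic.irreducible_rat (pow_pos (Fact.out : p.Prime).pos _))
    (by
      rw [cyclotomic_prime_pow_mul_X_pow_sub_one]
      simp only [map_sub, map_pow, aeval_X, map_one]
      rw [← map_pow, h, map_one, sub_self])
    (by
      simp only [map_sub, map_pow, aeval_X, map_one, ne_eq, sub_eq_zero]
      rw [← map_pow]
      exact fun e => h' (H.act_inj e))

theorem totient_le' {p k : ℕ} [Fact p.Prime] {g : G} (h : g ^ p ^ (k + 1) = 1)
    (h' : g ^ p ^ k ≠ 1) : p ^ k * (p - 1) ≤ 23 := by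
  have := natDegree_le_of_dvd (H.totient_le h h') (act V g).charpoly_monic.ne_zero
  rwa [natDegree_cyclotomic, charpoly_natDegree, H.dim,
    Nat.totient_prime_pow_succ (Fact.out : p.Prime)] at this

theorem prime_le {p : ℕ} (hp : p.Prime) (h : p ∣ Nat.card G) : p ≤ 23 := by
  have := Fact.mk hp
  obtain ⟨g, hg⟩ := exists_prime_orderOf_dvd_card' p h
  have := H.totient_le' (p := p) (k := 0) (g := g) (by simp [← hg]) (by
    simp only [pow_zero, pow_one]
    rintro rfl
    rw [orderOf_one] at hg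
    exact hp.one_lt.ne hg)
  have h24 : p ≠ 24 := by rintro rfl; norm_num at hp
  rw [pow_zero, one_mul] at this
  omega

theorem charpoly23 {g : G} (h : g ^ 23 = 1) (h' : g ≠ 1) :
    (act V g).charpoly = X ^ 23 - 1 := by
  have : Fact (Nat.Prime 23) := ⟨by norm_num⟩
  obtain ⟨q, hq⟩ := H.totient_le (p := 23) (k := 0) (g := g) (by simpa) (by simpa)
  rw [zero_add, pow_one] at hq
  have hm : q.Monic := (cyclotomic.monic 23 ℚ).of_mul_monic_left (hq ▸ (act V g).charpoly_monic)
  have hd : q.natDegree = 1 := by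
    have := (act V g).charpoly_natDegree
    rw [hq, (cyclotomic.monic 23 ℚ).natDegree_mul hm, natDegree_cyclotomic, H.dim,
      Nat.totient_prime (by norm_num)] at this
    omega
  have e := hm.eq_X_add_C hd
  obtain ⟨x, hx⟩ := ((Module.End.hasEigenvalue_iff_isRoot_charpoly (act V g) (-q.coeff 0)).2 (by
    rw [hq, e]; simp)).exists_hasEigenvector
  have h1 := hx.pow_apply 23
  rw [← map_pow, h, map_one, Module.End.one_apply] at h1
  have h2 : (-q.coeff 0) ^ 23 = 1 := by
    have : ((-q.coeff 0) ^ 23 - 1) • x = 0 := by rw [sub_smul, ← h1, one_smul, sub_self]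
    exact sub_eq_zero.1 ((smul_eq_zero.1 this).resolve_right hx.2)
  have h3 : -q.coeff 0 = 1 := (Odd.pow_inj (by decide)).1 (h2.trans (one_pow 23).symm)
  rw [hq, e, show q.coeff 0 = -1 by linarith, map_neg, map_one, ← sub_eq_add_neg,
    cyclotomic_prime_mul_X_sub_one]

theorem exists_fixed {g : G} (h : g ^ 23 = 1) (h' : g ≠ 1) :
    ∃ v : V, v ≠ 0 ∧ g • v = v ∧ ∀ x : V, g • x = x → ∃ c : ℚ, x = c • v := by
  obtain ⟨v, hv⟩ := ((Module.End.hasEigenvalue_iff_isRoot_charpoly (act V g) 1).2 (by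
    rw [H.charpoly23 h h']; simp)).exists_hasEigenvector
  have h1 := LinearMap.finrank_eigenspace_le (act V g) 1
  rw [H.charpoly23 h h'] at h1
  have h2 : rootMultiplicity (1 : ℚ) (X ^ 23 - 1) ≤ 1 :=
    rootMultiplicity_le_one_of_separable (X_pow_sub_one_separable_iff.2 (by norm_num)) _
  refine ⟨v, hv.2, by simpa using hv.apply_eq_smul, fun x hx => ?_⟩
  obtain ⟨w, hw⟩ := finrank_le_one_iff.1 (h1.trans h2)
  obtain ⟨c, hc⟩ := hw ⟨x, Module.End.mem_eigenspace_iff.2 (by simpa using hx)⟩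
  obtain ⟨c', hc'⟩ := hw ⟨v, hv.1⟩
  have e1 : c • (w : V) = x := congrArg Subtype.val hc
  have e2 : c' • (w : V) = v := congrArg Subtype.val hc'
  have h0 : c' ≠ 0 := by rintro rfl; exact hv.2 (by rw [← e2, zero_smul])
  exact ⟨c / c', by rw [← e1, ← e2, smul_smul, div_mul_cancel₀ _ h0]⟩

theorem trace23 {g : G} (h : g ^ 23 = 1) (h' : g ≠ 1) : trace ℚ V (act V g) = 0 := by
  let e := Module.finBasisOfFinrankEq ℚ V H.dim
  rw [trace_eq_matrix_trace ℚ e, Matrix.trace_eq_neg_charpoly_coeff, charpoly_toMatrix,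
    H.charpoly23 h h']
  simp [coeff_one, coeff_X_pow]

theorem not_sq_dvd : ¬ 23 ^ 2 ∣ Nat.card G := fun hd => by
  classical
  have : Fact (Nat.Prime 23) := ⟨by norm_num⟩
  obtain ⟨P, hP⟩ := Sylow.exists_subgroup_card_pow_prime 23 hd
  have := Fintype.ofFinite P
  have h23 : ∀ g : P, (g : G) ^ 23 = 1 := fun g => by
    by_contra hc
    have := H.totient_le' (p := 23) (k := 1) (g := g) (by
      rw [← hP, ← Subgroup.coe_pow, pow_card_eq_one', Subgroup.coe_one]) (by simpa using hc)
    norm_num at this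
  let e : Module.End ℚ V := (1 / 529 : ℚ) • ∑ g : P, act V (g : G)
  have hc : Fintype.card P = 529 := by rw [← Nat.card_eq_fintype_card, hP]; rfl
  have he : IsIdempotentElem e := by
    have : ∀ k : P, act V (k : G) * ∑ g : P, act V (g : G) = ∑ g : P, act V (g : G) := fun k => by
      rw [Finset.mul_sum, ← Equiv.sum_comp (Equiv.mulLeft k) fun g : P => act V (g : G)]
      simp only [Equiv.coe_mulLeft, Subgroup.coe_mul, map_mul]
    show e * e = e
    simp only [e, smul_mul_smul_comm]
    rw [Finset.sum_mul]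
    simp only [this, Finset.sum_const, Finset.card_univ, hc]
    rw [← Nat.cast_smul_eq_nsmul ℚ, smul_smul]
    norm_num
  have h1 := (LinearMap.IsIdempotentElem.isProj_range e he).trace
  have h2 : trace ℚ V e = 1 / 23 := by
    simp only [e, map_smul, map_sum]
    rw [Finset.sum_eq_single 1 (fun g _ hg => H.trace23 (h23 g) (by simpa using hg)) (by simp)]
    rw [Subgroup.coe_one, map_one, trace_one, H.dim]; norm_num
  rw [h2] at h1
  have : (1 : ℚ) = 23 * (finrank ℚ (range e) : ℕ) := by rw [← h1]; norm_num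
  have : 1 = 23 * finrank ℚ (range e) := by exact_mod_cast this
  omega

end Irr

end Cfsg.Lib.FT
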