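import Mathlib

/-!
# Positive semidefinite circulant matrices of order 23 with diagonal 2 and row sum 0
-/

set_option autoImplicit false

namespace Cfsg.Lib.FT

open Finset

/-- the test -/
def tst (n1 n2 n3 n4 n5 n6 n7 n8 n9 n10 n11 : ℕ) : Bool :=
  !(Nat.ble 118 (27 * n1 + 25 * n2 + 23 * n3 + 21 * n4 + 17 * n5 + 13 * n6 + 9 * n7 + 6 * n8 + 4 * n9 + 2 * n10) &&
    Nat.ble 118 (25 * n1 + 21 * n2 + 13 * n3 + 6 * n4 + 2 * n5 + 4 * n7 + 9 * n8 + 17 * n9 + 23 * n10 + 27 * n11) &&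
    Nat.ble 118 (23 * n1 + 13 * n2 + 4 * n3 + 6 * n5 + 17 * n6 + 25 * n7 + 27 * n8 + 21 * n9 + 9 * n10 + 2 * n11) &&
    Nat.ble 118 (21 * n1 + 6 * n2 + 9 * n4 + 23 * n5 + 27 * n6 + 17 * n7 + 4 * n8 + 2 * n9 + 13 * n10 + 25 * n11) &&
    Nat.ble 118 (17 * n1 + 2 * n2 + 6 * n3 + 23 * n4 + 25 * n5 + 9 * n6 + 13 * n8 + 27 * n9 + 21 * n10 + 4 * n11) &&
    Nat.ble 118 (13 * n1 + 17 * n3 + 27 * n4 + 9 * n5 + 2 * n6 + 21 * n7 + 25 * n8 + 6 * n9 + 4 * n10 + 23 * n11) &&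
    Nat.ble 118 (9 * n1 + 4 * n2 + 25 * n3 + 17 * n4 + 21 * n6 + 23 * n7 + 2 * n8 + 13 * n9 + 27 * n10 + 6 * n11) &&
    Nat.ble 118 (6 * n1 + 9 * n2 + 27 * n3 + 4 * n4 + 13 * n5 + 25 * n6 + 2 * n7 + 17 * n8 + 23 * n9 + 21 * n11) &&
    Nat.ble 118 (4 * n1 + 17 * n2 + 21 * n3 + 2 * n4 + 27 * n5 + 6 * n6 + 13 * n7 + 23 * n8 + 25 * n10 + 9 * n11) &&
    Nat.ble 118 (2 * n1 + 23 * n2 + 9 * n3 + 13 * n4 + 21 * n5 + 4 * n6 + 27 * n7 + 25 * n9 + 6 * n10 + 17 * n11) &&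
    Nat.ble 118 (27 * n2 + 2 * n3 + 25 * n4 + 4 * n5 + 23 * n6 + 6 * n7 + 21 * n8 + 9 * n9 + 17 * n10 + 13 * n11)) ||
  (Nat.ble n1 1 && Nat.ble n2 1 && Nat.ble n3 1 && Nat.ble n4 1 && Nat.ble n5 1 && Nat.ble n6 1 && Nat.ble n7 1 && Nat.ble n8 1 && Nat.ble n9 1 && Nat.ble n10 1 && Nat.ble n11 1)

/-- the enumeration -/
def enum : Bool :=
  [0, 1, 2].all fun n1 =>
  [0, 1, 2].all fun n2 =>
  [0, 1, 2].all fun n3 =>
  [0, 1, 2].all fun n4 =>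
  [0, 1, 2].all fun n5 =>
  [0, 1, 2].all fun n6 =>
  [0, 1, 2].all fun n7 =>
  [0, 1, 2].all fun n8 =>
  [0, 1, 2].all fun n9 =>
  [0, 1, 2].all fun n10 =>
  (!(Nat.ble (n1 + n2 + n3 + n4 + n5 + n6 + n7 + n8 + n9 + n10) 10 &&
      Nat.ble 8 (n1 + n2 + n3 + n4 + n5 + n6 + n7 + n8 + n9 + n10)) ||
    tst n1 n2 n3 n4 n5 n6 n7 n8 n9 n10 (10 - (n1 + n2 + n3 + n4 + n5 + n6 + n7 + n8 + n9 + n10)))

theorem enum_true : enum = true := by decide +kernel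

theorem mem3 {n : ℕ} (h : n ≤ 2) : n ∈ [0, 1, 2] := by
  simp only [List.mem_cons, List.not_mem_nil, or_false]; omega

theorem key_nat {n1 n2 n3 n4 n5 n6 n7 n8 n9 n10 n11 : ℕ} (b1 : n1 ≤ 2) (b2 : n2 ≤ 2) (b3 : n3 ≤ 2) (b4 : n4 ≤ 2) (b5 : n5 ≤ 2) (b6 : n6 ≤ 2) (b7 : n7 ≤ 2) (b8 : n8 ≤ 2) (b9 : n9 ≤ 2) (b10 : n10 ≤ 2) (b11 : n11 ≤ 2)
    (hs : n1 + n2 + n3 + n4 + n5 + n6 + n7 + n8 + n9 + n10 + n11 = 10) :
    tst n1 n2 n3 n4 n5 n6 n7 n8 n9 n10 n11 = true := by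
  have h := enum_true
  simp only [enum, List.all_eq_true] at h
  have := h _ (mem3 b1) _ (mem3 b2) _ (mem3 b3) _ (mem3 b4) _ (mem3 b5) _ (mem3 b6) _ (mem3 b7) _ (mem3 b8) _ (mem3 b9) _ (mem3 b10)
  have g1 : 10 - (n1 + n2 + n3 + n4 + n5 + n6 + n7 + n8 + n9 + n10) = n11 := by
    clear * - hs; omega
  have g2 : Nat.ble (n1 + n2 + n3 + n4 + n5 + n6 + n7 + n8 + n9 + n10) 10 = true :=
    Nat.ble_eq_true_of_le (by clear * - hs; omega)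
  have g3 : Nat.ble 8 (n1 + n2 + n3 + n4 + n5 + n6 + n7 + n8 + n9 + n10) = true :=
    Nat.ble_eq_true_of_le (by clear * - hs b11; omega)
  rw [g1, g2, g3] at this
  exact this

theorem key_int {a1 a2 a3 a4 a5 a6 a7 a8 a9 a10 a11 : ℤ}
    (b1 : -1 ≤ a1 ∧ a1 ≤ 1) (b2 : -1 ≤ a2 ∧ a2 ≤ 1) (b3 : -1 ≤ a3 ∧ a3 ≤ 1) (b4 : -1 ≤ a4 ∧ a4 ≤ 1) (b5 : -1 ≤ a5 ∧ a5 ≤ 1) (b6 : -1 ≤ a6 ∧ a6 ≤ 1) (b7 : -1 ≤ a7 ∧ a7 ≤ 1) (b8 : -1 ≤ a8 ∧ a8 ≤ 1) (b9 : -1 ≤ a9 ∧ a9 ≤ 1) (b10 : -1 ≤ a10 ∧ a10 ≤ 1) (b11 : -1 ≤ a11 ∧ a11 ≤ 1)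
    (hs : a1 + a2 + a3 + a4 + a5 + a6 + a7 + a8 + a9 + a10 + a11 = -1)
    (h1 : 0 ≤ 15 + (13) * a1 + (11) * a2 + (9) * a3 + (7) * a4 + (3) * a5 + (-1) * a6 + (-5) * a7 + (-8) * a8 + (-10) * a9 + (-12) * a10 + (-14) * a11)
    (h2 : 0 ≤ 15 + (11) * a1 + (7) * a2 + (-1) * a3 + (-8) * a4 + (-12) * a5 + (-14) * a6 + (-10) * a7 + (-5) * a8 + (3) * a9 + (9) * a10 + (13) * a11)
    (h3 : 0 ≤ 15 + (9) * a1 + (-1) * a2 + (-10) * a3 + (-14) * a4 + (-8) * a5 + (3) * a6 + (11) * a7 + (13) * a8 + (7) * a9 + (-5) * a10 + (-12) * a11)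
    (h4 : 0 ≤ 15 + (7) * a1 + (-8) * a2 + (-14) * a3 + (-5) * a4 + (9) * a5 + (13) * a6 + (3) * a7 + (-10) * a8 + (-12) * a9 + (-1) * a10 + (11) * a11)
    (h5 : 0 ≤ 15 + (3) * a1 + (-12) * a2 + (-8) * a3 + (9) * a4 + (11) * a5 + (-5) * a6 + (-14) * a7 + (-1) * a8 + (13) * a9 + (7) * a10 + (-10) * a11)
    (h6 : 0 ≤ 15 + (-1) * a1 + (-14) * a2 + (3) * a3 + (13) * a4 + (-5) * a5 + (-12) * a6 + (7) * a7 + (11) * a8 + (-8) * a9 + (-10) * a10 + (9) * a11)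
    (h7 : 0 ≤ 15 + (-5) * a1 + (-10) * a2 + (11) * a3 + (3) * a4 + (-14) * a5 + (7) * a6 + (9) * a7 + (-12) * a8 + (-1) * a9 + (13) * a10 + (-8) * a11)
    (h8 : 0 ≤ 15 + (-8) * a1 + (-5) * a2 + (13) * a3 + (-10) * a4 + (-1) * a5 + (11) * a6 + (-12) * a7 + (3) * a8 + (9) * a9 + (-14) * a10 + (7) * a11)
    (h9 : 0 ≤ 15 + (-10) * a1 + (3) * a2 + (7) * a3 + (-12) * a4 + (13) * a5 + (-8) * a6 + (-1) * a7 + (9) * a8 + (-14) * a9 + (11) * a10 + (-5) * a11)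
    (h10 : 0 ≤ 15 + (-12) * a1 + (9) * a2 + (-5) * a3 + (-1) * a4 + (7) * a5 + (-10) * a6 + (13) * a7 + (-14) * a8 + (11) * a9 + (-8) * a10 + (3) * a11)
    (h11 : 0 ≤ 15 + (-14) * a1 + (13) * a2 + (-12) * a3 + (11) * a4 + (-10) * a5 + (9) * a6 + (-8) * a7 + (7) * a8 + (-5) * a9 + (3) * a10 + (-1) * a11)
    : a1 ≤ 0 ∧ a2 ≤ 0 ∧ a3 ≤ 0 ∧ a4 ≤ 0 ∧ a5 ≤ 0 ∧ a6 ≤ 0 ∧ a7 ≤ 0 ∧ a8 ≤ 0 ∧ a9 ≤ 0 ∧ a10 ≤ 0 ∧ a11 ≤ 0 := by
  obtain ⟨n1, rfl, c1⟩ : ∃ n : ℕ, a1 = n - 1 ∧ n ≤ 2 :=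
    ⟨(a1 + 1).toNat, by clear * - b1; omega⟩
  obtain ⟨n2, rfl, c2⟩ : ∃ n : ℕ, a2 = n - 1 ∧ n ≤ 2 :=
    ⟨(a2 + 1).toNat, by clear * - b2; omega⟩
  obtain ⟨n3, rfl, c3⟩ : ∃ n : ℕ, a3 = n - 1 ∧ n ≤ 2 :=
    ⟨(a3 + 1).toNat, by clear * - b3; omega⟩
  obtain ⟨n4, rfl, c4⟩ : ∃ n : ℕ, a4 = n - 1 ∧ n ≤ 2 :=
    ⟨(a4 + 1).toNat, by clear * - b4; omega⟩
  obtain ⟨n5, rfl, c5⟩ : ∃ n : ℕ, a5 = n - 1 ∧ n ≤ 2 :=
    ⟨(a5 + 1).toNat, by clear * - b5; omega⟩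
  obtain ⟨n6, rfl, c6⟩ : ∃ n : ℕ, a6 = n - 1 ∧ n ≤ 2 :=
    ⟨(a6 + 1).toNat, by clear * - b6; omega⟩
  obtain ⟨n7, rfl, c7⟩ : ∃ n : ℕ, a7 = n - 1 ∧ n ≤ 2 :=
    ⟨(a7 + 1).toNat, by clear * - b7; omega⟩
  obtain ⟨n8, rfl, c8⟩ : ∃ n : ℕ, a8 = n - 1 ∧ n ≤ 2 :=
    ⟨(a8 + 1).toNat, by clear * - b8; omega⟩
  obtain ⟨n9, rfl, c9⟩ : ∃ n : ℕ, a9 = n - 1 ∧ n ≤ 2 :=
    ⟨(a9 + 1).toNat, by clear * - b9; omega⟩
  obtain ⟨n10, rfl, c10⟩ : ∃ n : ℕ, a10 = n - 1 ∧ n ≤ 2 :=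
    ⟨(a10 + 1).toNat, by clear * - b10; omega⟩
  obtain ⟨n11, rfl, c11⟩ : ∃ n : ℕ, a11 = n - 1 ∧ n ≤ 2 :=
    ⟨(a11 + 1).toNat, by clear * - b11; omega⟩
  have := key_nat c1 c2 c3 c4 c5 c6 c7 c8 c9 c10 c11 (by clear * - hs; omega)
  have g1 : Nat.ble 118 (27 * n1 + 25 * n2 + 23 * n3 + 21 * n4 + 17 * n5 + 13 * n6 + 9 * n7 + 6 * n8 + 4 * n9 + 2 * n10) = true :=
    Nat.ble_eq_true_of_le (by clear * - hs h1; omega)
  have g2 : Nat.ble 118 (25 * n1 + 21 * n2 + 13 * n3 + 6 * n4 + 2 * n5 + 4 * n7 + 9 * n8 + 17 * n9 + 23 * n10 + 27 * n11) = true :=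
    Nat.ble_eq_true_of_le (by clear * - hs h2; omega)
  have g3 : Nat.ble 118 (23 * n1 + 13 * n2 + 4 * n3 + 6 * n5 + 17 * n6 + 25 * n7 + 27 * n8 + 21 * n9 + 9 * n10 + 2 * n11) = true :=
    Nat.ble_eq_true_of_le (by clear * - hs h3; omega)
  have g4 : Nat.ble 118 (21 * n1 + 6 * n2 + 9 * n4 + 23 * n5 + 27 * n6 + 17 * n7 + 4 * n8 + 2 * n9 + 13 * n10 + 25 * n11) = true :=
    Nat.ble_eq_true_of_le (by clear * - hs h4; omega)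
  have g5 : Nat.ble 118 (17 * n1 + 2 * n2 + 6 * n3 + 23 * n4 + 25 * n5 + 9 * n6 + 13 * n8 + 27 * n9 + 21 * n10 + 4 * n11) = true :=
    Nat.ble_eq_true_of_le (by clear * - hs h5; omega)
  have g6 : Nat.ble 118 (13 * n1 + 17 * n3 + 27 * n4 + 9 * n5 + 2 * n6 + 21 * n7 + 25 * n8 + 6 * n9 + 4 * n10 + 23 * n11) = true :=
    Nat.ble_eq_true_of_le (by clear * - hs h6; omega)
  have g7 : Nat.ble 118 (9 * n1 + 4 * n2 + 25 * n3 + 17 * n4 + 21 * n6 + 23 * n7 + 2 * n8 + 13 * n9 + 27 * n10 + 6 * n11) = true :=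
    Nat.ble_eq_true_of_le (by clear * - hs h7; omega)
  have g8 : Nat.ble 118 (6 * n1 + 9 * n2 + 27 * n3 + 4 * n4 + 13 * n5 + 25 * n6 + 2 * n7 + 17 * n8 + 23 * n9 + 21 * n11) = true :=
    Nat.ble_eq_true_of_le (by clear * - hs h8; omega)
  have g9 : Nat.ble 118 (4 * n1 + 17 * n2 + 21 * n3 + 2 * n4 + 27 * n5 + 6 * n6 + 13 * n7 + 23 * n8 + 25 * n10 + 9 * n11) = true :=
    Nat.ble_eq_true_of_le (by clear * - hs h9; omega)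
  have g10 : Nat.ble 118 (2 * n1 + 23 * n2 + 9 * n3 + 13 * n4 + 21 * n5 + 4 * n6 + 27 * n7 + 25 * n9 + 6 * n10 + 17 * n11) = true :=
    Nat.ble_eq_true_of_le (by clear * - hs h10; omega)
  have g11 : Nat.ble 118 (27 * n2 + 2 * n3 + 25 * n4 + 4 * n5 + 23 * n6 + 6 * n7 + 21 * n8 + 9 * n9 + 17 * n10 + 13 * n11) = true :=
    Nat.ble_eq_true_of_le (by clear * - hs h11; omega)
  rw [tst, g1, g2, g3, g4, g5, g6, g7, g8, g9, g10, g11] at this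
  simp only [Bool.and_self, Bool.not_true, Bool.false_or, Bool.and_eq_true, Nat.ble_eq] at this
  clear * - this
  omega

/-- the test vector -/
def XX (i : ZMod 23) : ℤ := ([1, 1, 1, 1, 0, 0, 0, 0, -1, -1, -1, -1, -1, -1, -1, -1, 0, 0, 0, 0, 1, 1, 1] : List ℤ).getD i.val 0

/-- its autocorrelation -/
def AA (i : ZMod 23) : ℤ := ([15, 13, 11, 9, 7, 3, -1, -5, -8, -10, -12, -14, -14, -12, -10, -8, -5, -1, 3, 7, 9, 11, 13] : List ℤ).getD i.val 0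

theorem AA_eq : ∀ j k : ZMod 23, j ≠ 0 → ∑ i, XX (j * i) * XX (j * (i + k)) = AA (j * k) := by
  decide +kernel

theorem sum23 {A : Type*} [AddCommMonoid A] (f : ZMod 23 → A) : ∑ k, f k = f 0 + f 1 + f 2 + f 3 + f 4 + f 5 + f 6 + f 7 + f 8 + f 9 + f 10 + f 11 + f 12 + f 13 + f 14 + f 15 + f 16 + f 17 + f 18 + f 19 + f 20 + f 21 + f 22 := by
  have : (univ : Finset (ZMod 23)) = {0, 1, 2, 3, 4, 5, 6, 7, 8, 9, 10, 11, 12, 13, 14, 15, 16, 17, 18, 19, 20, 21, 22} := by decide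
  rw [this]
  repeat rw [sum_insert (by decide)]
  rw [sum_singleton]
  simp only [add_assoc]

/-- the Gram pattern of a Coxeter element of `A₂₂` -/
def pat (j i : ZMod 23) : ℤ := if i = 0 then 2 else if i = j ∨ i = -j then -1 else 0

theorem pattern (c : ZMod 23 → ℤ) (h0 : c 0 = 2) (hs : ∀ i, c (-i) = c i)
    (hb : ∀ i, i ≠ 0 → -1 ≤ c i ∧ c i ≤ 1) (hsum : ∑ i, c i = 0)
    (hpsd : ∀ x : ZMod 23 → ℤ, 0 ≤ ∑ i, ∑ k, x i * x (i + k) * c k) :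
    ∃ j, j ≠ 0 ∧ ∀ i, c i = pat j i := by
  have ineq : ∀ j : ZMod 23, j ≠ 0 → 0 ≤ ∑ k, AA (j * k) * c k := fun j hj => by
    have := hpsd fun i => XX (j * i)
    rw [sum_comm] at this
    simpa only [← sum_mul, AA_eq j _ hj] using this
  have e1 : c 22 = c 1 := hs 1
  have e2 : c 21 = c 2 := hs 2
  have e3 : c 20 = c 3 := hs 3
  have e4 : c 19 = c 4 := hs 4
  have e5 : c 18 = c 5 := hs 5
  have e6 : c 17 = c 6 := hs 6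
  have e7 : c 16 = c 7 := hs 7
  have e8 : c 15 = c 8 := hs 8
  have e9 : c 14 = c 9 := hs 9
  have e10 : c 13 = c 10 := hs 10
  have e11 : c 12 = c 11 := hs 11
  have h1 := ineq 1 (by decide)
  rw [sum23] at h1
  change 0 ≤ (15) * c 0 + (13) * c 1 + (11) * c 2 + (9) * c 3 + (7) * c 4 + (3) * c 5 + (-1) * c 6 + (-5) * c 7 + (-8) * c 8 + (-10) * c 9 + (-12) * c 10 + (-14) * c 11 + (-14) * c 12 + (-12) * c 13 + (-10) * c 14 + (-8) * c 15 + (-5) * c 16 + (-1) * c 17 + (3) * c 18 + (7) * c 19 + (9) * c 20 + (11) * c 21 + (13) * c 22 at h1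
  have h2 := ineq 2 (by decide)
  rw [sum23] at h2
  change 0 ≤ (15) * c 0 + (11) * c 1 + (7) * c 2 + (-1) * c 3 + (-8) * c 4 + (-12) * c 5 + (-14) * c 6 + (-10) * c 7 + (-5) * c 8 + (3) * c 9 + (9) * c 10 + (13) * c 11 + (13) * c 12 + (9) * c 13 + (3) * c 14 + (-5) * c 15 + (-10) * c 16 + (-14) * c 17 + (-12) * c 18 + (-8) * c 19 + (-1) * c 20 + (7) * c 21 + (11) * c 22 at h2
  have h3 := ineq 3 (by decide)
  rw [sum23] at h3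
  change 0 ≤ (15) * c 0 + (9) * c 1 + (-1) * c 2 + (-10) * c 3 + (-14) * c 4 + (-8) * c 5 + (3) * c 6 + (11) * c 7 + (13) * c 8 + (7) * c 9 + (-5) * c 10 + (-12) * c 11 + (-12) * c 12 + (-5) * c 13 + (7) * c 14 + (13) * c 15 + (11) * c 16 + (3) * c 17 + (-8) * c 18 + (-14) * c 19 + (-10) * c 20 + (-1) * c 21 + (9) * c 22 at h3
  have h4 := ineq 4 (by decide)
  rw [sum23] at h4
  change 0 ≤ (15) * c 0 + (7) * c 1 + (-8) * c 2 + (-14) * c 3 + (-5) * c 4 + (9) * c 5 + (13) * c 6 + (3) * c 7 + (-10) * c 8 + (-12) * c 9 + (-1) * c 10 + (11) * c 11 + (11) * c 12 + (-1) * c 13 + (-12) * c 14 + (-10) * c 15 + (3) * c 16 + (13) * c 17 + (9) * c 18 + (-5) * c 19 + (-14) * c 20 + (-8) * c 21 + (7) * c 22 at h4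
  have h5 := ineq 5 (by decide)
  rw [sum23] at h5
  change 0 ≤ (15) * c 0 + (3) * c 1 + (-12) * c 2 + (-8) * c 3 + (9) * c 4 + (11) * c 5 + (-5) * c 6 + (-14) * c 7 + (-1) * c 8 + (13) * c 9 + (7) * c 10 + (-10) * c 11 + (-10) * c 12 + (7) * c 13 + (13) * c 14 + (-1) * c 15 + (-14) * c 16 + (-5) * c 17 + (11) * c 18 + (9) * c 19 + (-8) * c 20 + (-12) * c 21 + (3) * c 22 at h5
  have h6 := ineq 6 (by decide)
  rw [sum23] at h6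
  change 0 ≤ (15) * c 0 + (-1) * c 1 + (-14) * c 2 + (3) * c 3 + (13) * c 4 + (-5) * c 5 + (-12) * c 6 + (7) * c 7 + (11) * c 8 + (-8) * c 9 + (-10) * c 10 + (9) * c 11 + (9) * c 12 + (-10) * c 13 + (-8) * c 14 + (11) * c 15 + (7) * c 16 + (-12) * c 17 + (-5) * c 18 + (13) * c 19 + (3) * c 20 + (-14) * c 21 + (-1) * c 22 at h6
  have h7 := ineq 7 (by decide)
  rw [sum23] at h7
  change 0 ≤ (15) * c 0 + (-5) * c 1 + (-10) * c 2 + (11) * c 3 + (3) * c 4 + (-14) * c 5 + (7) * c 6 + (9) * c 7 + (-12) * c 8 + (-1) * c 9 + (13) * c 10 + (-8) * c 11 + (-8) * c 12 + (13) * c 13 + (-1) * c 14 + (-12) * c 15 + (9) * c 16 + (7) * c 17 + (-14) * c 18 + (3) * c 19 + (11) * c 20 + (-10) * c 21 + (-5) * c 22 at h7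
  have h8 := ineq 8 (by decide)
  rw [sum23] at h8
  change 0 ≤ (15) * c 0 + (-8) * c 1 + (-5) * c 2 + (13) * c 3 + (-10) * c 4 + (-1) * c 5 + (11) * c 6 + (-12) * c 7 + (3) * c 8 + (9) * c 9 + (-14) * c 10 + (7) * c 11 + (7) * c 12 + (-14) * c 13 + (9) * c 14 + (3) * c 15 + (-12) * c 16 + (11) * c 17 + (-1) * c 18 + (-10) * c 19 + (13) * c 20 + (-5) * c 21 + (-8) * c 22 at h8
  have h9 := ineq 9 (by decide)
  rw [sum23] at h9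
  change 0 ≤ (15) * c 0 + (-10) * c 1 + (3) * c 2 + (7) * c 3 + (-12) * c 4 + (13) * c 5 + (-8) * c 6 + (-1) * c 7 + (9) * c 8 + (-14) * c 9 + (11) * c 10 + (-5) * c 11 + (-5) * c 12 + (11) * c 13 + (-14) * c 14 + (9) * c 15 + (-1) * c 16 + (-8) * c 17 + (13) * c 18 + (-12) * c 19 + (7) * c 20 + (3) * c 21 + (-10) * c 22 at h9
  have h10 := ineq 10 (by decide)
  rw [sum23] at h10
  change 0 ≤ (15) * c 0 + (-12) * c 1 + (9) * c 2 + (-5) * c 3 + (-1) * c 4 + (7) * c 5 + (-10) * c 6 + (13) * c 7 + (-14) * c 8 + (11) * c 9 + (-8) * c 10 + (3) * c 11 + (3) * c 12 + (-8) * c 13 + (11) * c 14 + (-14) * c 15 + (13) * c 16 + (-10) * c 17 + (7) * c 18 + (-1) * c 19 + (-5) * c 20 + (9) * c 21 + (-12) * c 22 at h10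
  have h11 := ineq 11 (by decide)
  rw [sum23] at h11
  change 0 ≤ (15) * c 0 + (-14) * c 1 + (13) * c 2 + (-12) * c 3 + (11) * c 4 + (-10) * c 5 + (9) * c 6 + (-8) * c 7 + (7) * c 8 + (-5) * c 9 + (3) * c 10 + (-1) * c 11 + (-1) * c 12 + (3) * c 13 + (-5) * c 14 + (7) * c 15 + (-8) * c 16 + (9) * c 17 + (-10) * c 18 + (11) * c 19 + (-12) * c 20 + (13) * c 21 + (-14) * c 22 at h11
  have hsum' := hsum
  rw [sum23] at hsum'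
  rw [h0, e1, e2, e3, e4, e5, e6, e7, e8, e9, e10, e11] at hsum' h1 h2 h3 h4 h5 h6 h7 h8 h9 h10 h11
  have key := key_int (hb 1 (by decide)) (hb 2 (by decide)) (hb 3 (by decide)) (hb 4 (by decide)) (hb 5 (by decide)) (hb 6 (by decide)) (hb 7 (by decide)) (hb 8 (by decide)) (hb 9 (by decide)) (hb 10 (by decide)) (hb 11 (by decide))
    (by linarith only [hsum']) (by linarith only [h1]) (by linarith only [h2]) (by linarith only [h3]) (by linarith only [h4]) (by linarith only [h5]) (by linarith only [h6]) (by linarith only [h7]) (by linarith only [h8]) (by linarith only [h9]) (by linarith only [h10]) (by linarith only [h11])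
  clear hsum' h1 h2 h3 h4 h5 h6 h7 h8 h9 h10 h11
  have hle : ∀ i, i ≠ 0 → c i ≤ 0 := fun i hi => by
    have : i ∈ ({1, 2, 3, 4, 5, 6, 7, 8, 9, 10, 11, 12, 13, 14, 15, 16, 17, 18, 19, 20, 21, 22} : Finset (ZMod 23)) := by
      revert i; decide
    simp only [mem_insert, mem_singleton] at this
    rcases this with rfl | rfl | rfl | rfl | rfl | rfl | rfl | rfl | rfl | rfl | rfl | rfl | rfl | rfl | rfl | rfl | rfl | rfl | rfl | rfl | rfl | rfl <;> omega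
  obtain ⟨j, hj, hj'⟩ : ∃ j, j ≠ 0 ∧ c j = -1 := by
    by_contra hc
    push Not at hc
    have : ∀ i, i ≠ 0 → c i = 0 := fun i hi => by
      have := hb i hi; have := hle i hi; have := hc i hi; omega
    rw [sum_eq_single 0 (fun i _ hi => this i hi) (by simp)] at hsum
    omega
  refine ⟨j, hj, fun i => ?_⟩
  unfold pat
  split_ifs with a b
  · rw [a, h0]
  · rcases b with rfl | rfl
    · exact hj'
    · rw [hs, hj']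
  · push Not at b
    have hjj : ∀ j : ZMod 23, j ≠ 0 → j ≠ -j := by decide
    have h1 := sum_le_sum_of_subset_of_nonneg (f := fun k => -c k) (s := {j, -j, i})
      (t := univ.erase 0) (by
        intro k hk
        simp only [mem_insert, mem_singleton] at hk
        rcases hk with rfl | rfl | rfl <;> simp [hj, a]) fun k hk _ => by
        have := hle k (ne_of_mem_erase hk); omega
    rw [sum_insert (by simp [hjj j hj, b.1.symm]), sum_insert (by simp [b.2.symm]), sum_singleton,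
      sum_neg_distrib, hs, hj'] at h1
    rw [← add_sum_erase _ _ (mem_univ 0)] at hsum
    have := hle i a
    omega

end Cfsg.Lib.FT
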