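import Cfsg.Agent.Lib.FT.Core
import Cfsg.Agent.Lib.FT.Pat

/-!
# The lattice has no roots
-/

set_option autoImplicit false
set_option linter.unusedSectionVars false

namespace Cfsg.Lib.FT

open Module LinearMap Finset

variable {G : Type*} [Group G] [Finite G] {V : Type*} [AddCommGroup V] [Module ℚ V]
  [FiniteDimensional ℚ V] [DistribMulAction G V] [SMulCommClass G ℚ V]

theorem PD.lt_of_ne {b : LinearMap.BilinForm ℚ V} (h : PD b) {x y : V} {n : ℚ} (hx : b x x = n)
    (hy : b y y = n) (hne : x ≠ y) : b x y < n := by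
  have := h.pos _ (sub_ne_zero.2 hne)
  rw [h.norm_sub] at this
  linarith

theorem PD.lt_of_ne_neg {b : LinearMap.BilinForm ℚ V} (h : PD b) {x y : V} {n : ℚ}
    (hx : b x x = n) (hy : b y y = n) (hne : x ≠ -y) : -n < b x y := by
  have := h.lt_of_ne hx (y := -y) (by simpa using hy) hne
  simp only [map_neg] at this
  linarith

theorem PD.gram_zero {b : LinearMap.BilinForm ℚ V} (h : PD b) (hV : finrank ℚ V = 23)
    {f : ZMod 23 → V} {κ : ℚ} (hκ : 1 + 23 * κ ≠ 0)
    (hf : ∀ i k, b (f i) (f k) = (if i = k then 1 else 0) + κ) {x : V} (hx : ∀ i, b x (f i) = 0) :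
    x = 0 := by
  have hli : LinearIndependent ℚ f := Fintype.linearIndependent_iff.2 fun c hc => by
    have h1 : ∀ k, c k + κ * ∑ i, c i = 0 := fun k => by
      have := congrArg (fun z => b z (f k)) hc
      simp only [map_sum, LinearMap.sum_apply, map_smul, LinearMap.smul_apply, smul_eq_mul, hf,
        mul_add, sum_add_distrib, mul_ite, mul_one, mul_zero, sum_ite_eq', mem_univ, if_true,
        ← sum_mul, map_zero, LinearMap.zero_apply] at this
      linarith
    have h2 : ∑ k, (c k + κ * ∑ i, c i) = 0 := sum_eq_zero fun k _ => h1 k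
    simp only [sum_add_distrib, sum_const, card_univ, ZMod.card, nsmul_eq_mul] at h2
    have h3 : ∑ i, c i = 0 := by
      have : (1 + 23 * κ) * ∑ i, c i = 0 := by push_cast at h2; linarith
      exact (mul_eq_zero.1 this).resolve_left hκ
    intro k
    simpa [h3] using h1 k
  have hsp := hli.span_eq_top_of_card_eq_finrank' (by rw [ZMod.card, hV])
  have : Submodule.span ℚ (Set.range f) ≤ ker (b x) := Submodule.span_le.2 (by
    rintro _ ⟨i, rfl⟩; exact hx i)
  exact h.eq_zero (this (hsp ▸ Submodule.mem_top))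

theorem Irr.exists_ne (H : Irr G V) {b : LinearMap.BilinForm ℚ V} {v r : V} (hv : b v v ≠ 0)
    (hr : r ≠ 0) : ∃ g : G, b v (g • r) ≠ 0 := by
  by_contra hc
  push Not at hc
  let W : Submodule ℚ V :=
    { carrier := {x | ∀ g : G, b v (g • x) = 0}
      zero_mem' := fun g => by simp
      add_mem' := fun hx hy g => by rw [smul_add, map_add, hx g, hy g, add_zero]
      smul_mem' := fun c x hx g => by rw [smul_comm, map_smul, hx g, smul_zero] }
  rcases H.irr W (fun g w hw k => by rw [← mul_smul]; exact hw _) with e | e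
  · exact hr ((Submodule.eq_bot_iff _).1 e r hc)
  · have : v ∈ W := e ▸ Submodule.mem_top
    exact hv (by simpa using this 1)

theorem Tau.ne_neg {τ : ZMod 23 → G} (T : Tau τ) {r : V} (hr : r ≠ 0) (i : ZMod 23) :
    r ≠ -(τ i • r) := fun e => by
  have h1 : ∀ n : ℕ, τ i ^ n • r = (-1 : ℚ) ^ n • r := fun n => by
    induction n with
    | zero => simp
    | succ n ih =>
      rw [pow_succ', mul_smul, ih, smul_comm, pow_succ, mul_smul, neg_one_smul,
        neg_eq_iff_eq_neg.1 e.symm]
  have := h1 23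
  rw [T.pow23, one_smul] at this
  have h2 : (2 : ℚ) • r = 0 := by
    rw [two_smul]; nth_rewrite 1 [this]; norm_num
  exact hr ((smul_eq_zero.1 h2).resolve_left two_ne_zero)

theorem pat_sum : ∀ m : ZMod 23, ∑ k : ZMod 23, ∑ l : ZMod 23,
    (k.val : ℤ) * (l.val * pat 1 (-k + (m + l))) = if m = 0 then 506 else -23 := by
  decide +kernel

namespace Core

variable {τ : ZMod 23 → G} {b : LinearMap.BilinForm ℚ V} {L : Submodule ℤ V} {v x0 : V} {d : ℤ}
  (h : Core τ b L v x0 d)
include h

theorem sum_b {x : V} {a : ℤ} (ha : b v x = a * d) : ∑ i, b x (τ i • x) = a ^ 2 * d := by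
  have := h.d0
  rw [← map_sum, show ∑ i, τ i • x = nrm τ x from rfl, h.nrm_eq, map_smul, h.pd.symm x v, ha,
    smul_eq_mul]
  field_simp

theorem not_fixed {r : V} (hr : r ∈ L) {n : ℤ} (h0 : 0 < n) (hn : n < 23) (e : b r r = n)
    {i : ZMod 23} (hi : i ≠ 0) : r ≠ τ i • r := fun hf => by
  have : Fact (Nat.Prime 23) := ⟨by norm_num⟩
  obtain ⟨a, ha⟩ := h.ex r hr
  have h1 : ∀ k, τ k • r = r := fun k => by
    have : ∀ n : ℕ, τ i ^ n • r = r := fun n => by
      induction n with
      | zero => simp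
      | succ n ih => rw [pow_succ', mul_smul, ih, ← hf]
    have := this (k / i).val
    rwa [h.tau.pow, ZMod.natCast_zmod_val, div_mul_cancel₀ _ hi] at this
  have h2 := h.sum_b ha
  simp only [h1, e, sum_const, card_univ, ZMod.card, nsmul_eq_mul] at h2
  have h3 : 23 * n = a ^ 2 * d := by exact_mod_cast h2
  obtain ⟨c, rfl⟩ := prime23.dvd_of_dvd_pow ((prime23.dvd_or_dvd ⟨n, h3.symm⟩).resolve_right h.nd)
  have : n = 23 * (c ^ 2 * d) := by linarith
  omega

theorem caseA (H : Irr G V) (hM : ∀ x ∈ L, b v x = 0 → b x x ≠ 2) : ∀ r ∈ L, b r r ≠ 2 := by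
  have h4 : ∀ x ∈ L, b v x = 0 → x ≠ 0 → 4 ≤ b x x := fun x hx e h0 => by
    obtain ⟨k, hk⟩ := h.even0 hx e
    have a1 := h.pd.pos x h0
    have a2 := hM x hx e
    rw [hk] at a1 a2 ⊢
    have : 0 < k := by exact_mod_cast (by linarith : (0 : ℚ) < k)
    have : k ≠ 1 := by rintro rfl; simp at a2
    have : (2 : ℚ) ≤ k := by exact_mod_cast (by omega : 2 ≤ k)
    linarith
  have key : ∀ r ∈ L, b r r = 2 → ∀ a : ℤ, b v r = a * d → d = 2 ∧ (a = 1 ∨ a = -1) := by
    intro r hr e a ha
    have h1 := h.sum_b ha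
    rw [← add_sum_erase _ _ (mem_univ 0), h.tau.zero, one_smul, e] at h1
    have h2 : ∑ i ∈ univ.erase 0, b r (τ i • r) ≤ 0 := sum_nonpos fun i hi => by
      have := h4 _ (sub_mem hr (h.stab (τ i) _ hr)) (by rw [map_sub, h.bv, sub_self])
        (sub_ne_zero.2 (h.not_fixed hr (n := 2) (by norm_num) (by norm_num) e
          (ne_of_mem_erase hi)))
      rw [h.pd.norm_sub, h.inv, e] at this
      linarith
    have h3 : a ^ 2 * d ≤ 2 := by exact_mod_cast (by linarith : (a : ℚ) ^ 2 * d ≤ 2)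
    obtain ⟨k, hk⟩ := h.norm_mod hr ha
    have h5 : 2 = a ^ 2 * d + 2 * k := by rw [e] at hk; exact_mod_cast hk
    have a0 : a ≠ 0 := by rintro rfl; exact hM r hr (by simpa using ha) e
    have := h.dpos
    have h6 : 0 < a ^ 2 * d := by positivity
    have h7 : a ^ 2 * d = 2 := by omega
    have h8 : a ≤ 1 := by nlinarith
    have h9 : -1 ≤ a := by nlinarith
    interval_cases a <;> omega
  intro r hr e
  have r0 : r ≠ 0 := by rintro rfl; simp at e
  refine H.orth h.pd h.inv r0 fun g => ?_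
  have hs := h.stab g r hr
  have es : b (g • r) (g • r) = 2 := by rw [h.inv, e]
  generalize g • r = s at hs es
  have aux : ∀ s ∈ L, b s s = 2 → b v s = b v r → s = r ∨ b s r = 0 := fun s hs es hv => by
    by_cases e1 : s = r
    · exact Or.inl e1
    right
    obtain ⟨a, ha⟩ := h.ex r hr
    have a1 := h4 _ (sub_mem hs hr) (by rw [map_sub, hv, sub_self]) (sub_ne_zero.2 e1)
    rw [h.pd.norm_sub, e, es] at a1
    have a2 : s ≠ -r := by
      rintro rfl
      have := key r hr e a ha
      rw [map_neg, ha, this.1] at hv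
      rcases this.2 with rfl | rfl <;> norm_num at hv
    have a3 := h.pd.lt_of_ne_neg es e a2
    have a4 : b (s + r) (s + r) ≠ 2 := fun e2 => by
      have := (key _ (add_mem hs hr) e2 (2 * a) (by rw [map_add, hv, ha]; push_cast; ring)).2
      omega
    rw [h.pd.norm_add, e, es] at a4
    obtain ⟨k, hk⟩ := mem_ZZ.1 (h.ZZ hs hr)
    rw [hk] at a1 a3 a4 ⊢
    have b1 : k ≤ 0 := by exact_mod_cast (by linarith : (k : ℚ) ≤ 0)
    have b2 : -2 < k := by exact_mod_cast a3
    have b3 : k ≠ -1 := by rintro rfl; norm_num at a4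
    exact_mod_cast (by omega : k = 0)
  obtain ⟨a, ha⟩ := h.ex r hr
  obtain ⟨a', ha'⟩ := h.ex s hs
  by_cases e1 : a' = a
  · exact (aux s hs es (by rw [ha, ha', e1])).imp_right Or.inr
  · have : a' = -a := by
      have := (key r hr e a ha).2
      have := (key s hs es a' ha').2
      omega
    rcases aux (-s) (neg_mem hs) (by simpa using es) (by simp [ha, ha', this]) with e2 | e2
    · exact Or.inr (Or.inl (neg_eq_iff_eq_neg.1 e2))
    · exact Or.inr (Or.inr (by simpa using e2))

theorem simplex (H : Irr G V) (hd : d = 6)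
    (hall : ∀ s ∈ L, b s s = 2 → b v s = 0 ∨ b v s = 12 ∨ b v s = -12) {s : V} (hs : s ∈ L)
    (es : b s s = 2) (h0 : b v s ≠ 0) : False := by
  classical
  subst hd
  obtain ⟨a, ha⟩ := h.ex s hs
  have ha2 : (a : ℚ) ^ 2 = 4 := by
    push_cast at ha
    rcases (hall s hs es).resolve_left h0 with e | e <;> rw [e] at ha
    · rw [show (a : ℚ) = 2 by linarith]; norm_num
    · rw [show (a : ℚ) = -2 by linarith]; norm_num
  have h1 := h.sum_b ha
  rw [← add_sum_erase _ _ (mem_univ 0), h.tau.zero, one_smul, es, ha2] at h1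
  have h2 : ∀ i ∈ univ.erase (0 : ZMod 23), b s (τ i • s) ≤ 1 := fun i hi => by
    have := h.pd.lt_of_ne es (by rw [h.inv, es]) (h.not_fixed hs (n := 2) (by norm_num)
      (by norm_num) es (ne_of_mem_erase hi))
    obtain ⟨k, hk⟩ := mem_ZZ.1 (h.ZZ hs (h.stab (τ i) _ hs))
    rw [hk] at this ⊢
    have : k < 2 := by exact_mod_cast this
    exact_mod_cast (by omega : k ≤ 1)
  have h3 := (sum_eq_sum_iff_of_le h2).1 (by
    simp only [sum_const, card_erase_of_mem (mem_univ _), card_univ, ZMod.card]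
    norm_num at h1 ⊢; linarith)
  have hp : ∀ i k, b (τ i • s) (τ k • s) = (if i = k then 1 else 0) + 1 := fun i k => by
    rw [h.inv.left, h.tau.inv, h.tau.smul_smul]
    split_ifs with e
    · rw [e, neg_add_cancel, h.tau.zero, one_smul, es]; norm_num
    · rw [h3 _ (mem_erase.2 ⟨fun e' => e (neg_add_eq_zero.1 e'), mem_univ _⟩)]; norm_num
  let X : Finset (ZMod 23) → V := fun T =>
    ∑ i ∈ T, (12 : ℚ) • τ i • s - ((T.card : ℚ) / 2) • ∑ i, τ i • s
  have hX : ∀ T k, b (X T) (τ k • s) = if k ∈ T then 12 else 0 := fun T k => by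
    simp only [X, map_sub, map_sum, map_smul, LinearMap.sub_apply, LinearMap.sum_apply,
      LinearMap.smul_apply, smul_eq_mul, hp, mul_add, sum_add_distrib, mul_ite, sum_ite_eq',
      mem_univ, if_true, sum_const, card_univ, ZMod.card, nsmul_eq_mul, mul_one, mul_zero]
    split_ifs <;> push_cast <;> ring
  have hXn : ∀ T, b (X T) (X T) = 144 * T.card - 6 * T.card ^ 2 := fun T => by
    nth_rewrite 2 [show X T = ∑ i ∈ T, (12 : ℚ) • τ i • s - ((T.card : ℚ) / 2) • ∑ i, τ i • s
      from rfl]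
    simp only [map_sub, map_sum, map_smul, hX, smul_eq_mul, sum_ite_mem, univ_inter, sum_const,
      nsmul_eq_mul]
    rw [sum_congr rfl fun i hi => by rw [if_pos hi], sum_const, nsmul_eq_mul]
    ring
  have hv : b v v = 138 := by rw [h.nv]; norm_num
  have v0 : v ≠ 0 := by rintro rfl; simp at hv
  refine H.lines v0 (ι := Option (ZMod 23)) (by simp)
    (fun o => X (o.elim univ fun i => {i})) fun g => ?_
  have hx : ∀ t ∈ L, b t t = 2 → b (g • v) t = 0 ∨ b (g • v) t = 12 ∨ b (g • v) t = -12 :=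
    fun t ht et => by
      rw [h.inv.left]; exact hall _ (h.stab _ _ ht) (by rw [h.inv, et])
  have hxn : b (g • v) (g • v) = 138 := by rw [h.inv, hv]
  generalize g • v = x at hx hxn
  have aux : ∀ x : V, b x x = 138 → (∀ i, b x (τ i • s) = 0 ∨ b x (τ i • s) = 12) →
      ∃ o : Option (ZMod 23), x = X (o.elim univ fun i => {i}) := fun x hn hx => by
    let T := univ.filter fun i => b x (τ i • s) = 12
    have e : x = X T := sub_eq_zero.1 (h.pd.gram_zero H.dim (κ := 1) (by norm_num) hp fun i => by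
      rw [map_sub, LinearMap.sub_apply, hX]
      rcases hx i with e | e <;> simp [T, e])
    rw [e, hXn] at hn
    have : ((T.card : ℚ) - 1) * (T.card - 23) = 0 := by linarith
    rcases mul_eq_zero.1 this with e1 | e1
    · obtain ⟨i, hi⟩ := card_eq_one.1 (by exact_mod_cast sub_eq_zero.1 e1 : T.card = 1)
      exact ⟨some i, by rw [e, hi]; rfl⟩
    · have := eq_univ_of_card T (by rw [ZMod.card]; exact_mod_cast sub_eq_zero.1 e1)
      exact ⟨none, by rw [e, this]; rfl⟩
  have hx1 := fun i => hx _ (h.stab (τ i) _ hs) (by rw [h.inv, es])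
  by_cases hc : ∃ i, b x (τ i • s) = -12
  · obtain ⟨i, hi⟩ := hc
    obtain ⟨o, ho⟩ := aux (-x) (by simpa using hxn) fun k => by
      simp only [map_neg, LinearMap.neg_apply]
      rcases hx1 k with e | e | e
      · left; linarith
      · have hik : i ≠ k := by rintro rfl; linarith
        have := hx _ (sub_mem (h.stab (τ i) _ hs) (h.stab (τ k) _ hs)) (by
          rw [h.pd.norm_sub, hp, hp, hp, if_neg hik]; norm_num)
        rw [map_sub, hi, e] at this
        norm_num at this
      · right; linarith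
    exact ⟨o, Or.inr (neg_eq_iff_eq_neg.1 ho)⟩
  · push Not at hc
    obtain ⟨o, ho⟩ := aux x hxn fun k => (hx1 k).imp_right fun e => e.resolve_right (hc k)
    exact ⟨o, Or.inl ho⟩

theorem caseB (H : Irr G V) (h4 : ¬ (4 : ℤ) ∣ d) {r : V} (hr : r ∈ L) (hv : b v r = 0)
    (hc : ∀ i, b r (τ i • r) = pat 1 i) : False := by
  have d0 := h.d0
  have hN : nrm τ r = 0 := by rw [h.nrm_eq, hv]; simp
  let y : V := (-1 / 23 : ℚ) • ∑ k : ZMod 23, (k.val : ℚ) • τ k • r
  have yv : ∀ i, b v (τ i • y) = 0 := fun i => by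
    rw [h.bv]; simp [y, h.bv, hv]
  have yy : ∀ m, b y (τ m • y) = (if m = 0 then 1 else 0) - 1 / 23 := fun m => by
    have := congrArg (Int.cast : ℤ → ℚ) (pat_sum m)
    simp only [y, smul_comm (τ m), smul_sum, map_smul, map_sum, LinearMap.smul_apply,
      LinearMap.sum_apply, smul_eq_mul, h.inv.left, h.tau.inv, h.tau.smul_smul, hc]
    simp only [mul_sum]
    push_cast at this
    rw [sum_congr rfl fun k _ => sum_congr rfl fun l _ => show -1 / 23 * ((k.val : ℚ) *
      (-1 / 23 * (l.val * pat 1 (-l + (m + k))))) =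
        1 / 529 * (l.val * (k.val * pat 1 (-l + (m + k)))) by ring]
    simp only [← mul_sum _ _ (1 / 529 : ℚ)]
    rw [sum_comm, this]
    split_ifs <;> norm_num
  have YY : ∀ i k, b (τ i • y) (τ k • y) = (if i = k then 1 else 0) - 1 / 23 := fun i k => by
    rw [h.inv.left, h.tau.inv, h.tau.smul_smul, yy]
    simp only [neg_add_eq_zero]
  have y1 : y - τ 1 • y = r := by
    have e1 : τ 1 • ∑ k : ZMod 23, (k.val : ℚ) • τ k • r =
        ∑ k : ZMod 23, ((k - 1).val : ℚ) • τ k • r := by
      rw [smul_sum, ← Equiv.sum_comp (Equiv.addLeft 1) fun k => ((k - 1).val : ℚ) • τ k • r]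
      simp [smul_comm (τ 1), h.tau.smul_smul]
    have e2 : ∀ k : ZMod 23, (k.val : ℤ) - (k - 1).val = 1 - if k = 0 then 23 else 0 := by decide
    have e3 : ∀ k : ZMod 23, (k.val : ℚ) - (k - 1).val = 1 - if k = 0 then 23 else 0 :=
      fun k => by exact_mod_cast e2 k
    simp only [y]
    rw [smul_comm (τ 1), ← smul_sub, e1, ← sum_sub_distrib]
    simp only [← sub_smul, e3]
    simp only [sub_smul, one_smul, sum_sub_distrib, ite_smul, zero_smul, sum_ite_eq', mem_univ,
      if_true, h.tau.zero]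
    rw [show ∑ k, τ k • r = nrm τ r from rfl, hN]
    module
  have yL : ∀ i, τ i • y - y ∈ L := h.tau.all_of_one h.stab (by
    rw [← neg_sub, y1]; exact neg_mem hr)
  have ysum : ∑ i, τ i • y = 0 := by
    rw [show ∑ k, τ k • y = nrm τ y from rfl, h.nrm_eq]
    have := yv 0
    rw [h.tau.zero, one_smul] at this
    simp [this]
  have expand : ∀ x : V, x = ∑ i, b x (τ i • y) • τ i • y + (b v x / (23 * d)) • v := fun x =>
    sub_eq_zero.1 (h.pd.gram_zero H.dim (f := fun i => τ i • y + v) (κ := -1 / 23 + 23 * d)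
      (by rw [show 1 + 23 * (-1 / 23 + 23 * (d : ℚ)) = 529 * d by ring]; positivity)
      (fun i k => by
        simp only [map_add, LinearMap.add_apply, YY, yv, h.pd.symm _ v, h.nv]; ring) fun k => by
      have : ∑ i, b x (τ i • y) = 0 := by rw [← map_sum, ysum, map_zero]
      simp only [map_sub, map_add, map_sum, map_smul, LinearMap.sub_apply, LinearMap.add_apply,
        LinearMap.sum_apply, LinearMap.smul_apply, smul_eq_mul, YY, yv, h.pd.symm _ v, h.nv,
        mul_sub, sum_sub_distrib, mul_ite, mul_one, mul_zero, sum_ite_eq', mem_univ, if_true,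
        ← sum_mul, this, sum_const_zero]
      field_simp; ring)
  have nf : ∀ (n : ZMod 23 → ℤ) (c : ℚ), b (∑ i, n i • τ i • y + c • v) (∑ i, n i • τ i • y + c • v)
      = (∑ i, n i ^ 2 : ℤ) - (∑ i, n i : ℤ) ^ 2 / 23 + c ^ 2 * (23 * d) := fun n c => by
    simp only [map_add, map_sum, map_zsmul, map_smul, LinearMap.add_apply, LinearMap.sum_apply,
      LinearMap.smul_apply, YY, yv, h.pd.symm _ v, h.nv, zsmul_eq_mul, smul_eq_mul, mul_sub,
      sum_sub_distrib, mul_ite, mul_one, mul_zero, sum_ite_eq', mem_univ, if_true, ← sum_mul,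
      sum_const_zero, add_zero]
    push_cast
    simp only [← sq]
    ring
  have coord : ∀ x ∈ L, ∀ a : ℤ, b v x = a * d → ∃ n : ZMod 23 → ℤ, -11 ≤ ∑ i, n i ∧
      ∑ i, n i ≤ 11 ∧ x = ∑ i, n i • τ i • y + (a / 23 : ℚ) • v ∧
      23 * b x x = 23 * (∑ i, n i ^ 2 : ℤ) - (∑ i, n i : ℤ) ^ 2 + a ^ 2 * d := fun x hx a ha => by
    choose n0 hn0 using fun i => mem_ZZ.1 (h.ZZ hx (yL i))
    obtain ⟨t, ht⟩ : ∃ t : ℤ, -11 ≤ ∑ i, n0 i - 23 * t ∧ ∑ i, n0 i - 23 * t ≤ 11 :=
      ⟨(∑ i, n0 i + 11) / 23, by omega⟩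
    have e1 : ∑ i, (n0 i - t) = ∑ i, n0 i - 23 * t := by simp [sum_sub_distrib]
    have e2 : x = ∑ i, (n0 i - t) • τ i • y + (a / 23 : ℚ) • v := by
      nth_rewrite 1 [expand x]
      congr 1
      · have : ∀ i, b x (τ i • y) = (n0 i - t : ℤ) + (b x y + t) := fun i => by
          have := hn0 i
          rw [map_sub] at this
          push_cast; linarith
        simp only [this, add_smul, sum_add_distrib, ← smul_sum, ysum, smul_zero, add_zero,
          Int.cast_smul_eq_zsmul]
      · rw [ha]; congr 1; field_simp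
    refine ⟨fun i => n0 i - t, e1 ▸ ht.1, e1 ▸ ht.2, e2, ?_⟩
    rw [congrArg₂ (fun x y => b x y) e2 e2, nf]
    field_simp
  have cls : ∀ s ∈ L, b s s = 2 → ∀ a : ℤ, b v s = a * d →
      a = 0 ∨ d = 1 ∨ (d = 6 ∧ (a = 2 ∨ a = -2)) := fun s hs es a ha => by
    obtain ⟨n, n1, n2, -, e⟩ := coord s hs a ha
    rw [es] at e
    have e' : 46 = 23 * ∑ i, n i ^ 2 - (∑ i, n i) ^ 2 + a ^ 2 * d := by
      have : (46 : ℚ) = 23 * ∑ i, (n i : ℚ) ^ 2 - (∑ i, (n i : ℚ)) ^ 2 + a ^ 2 * d := by
        push_cast at e; linarith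
      exact_mod_cast this
    have q1 : ∑ i, n i ≤ ∑ i, n i ^ 2 := sum_le_sum fun i _ => Int.le_self_sq _
    have q2 : -∑ i, n i ≤ ∑ i, n i ^ 2 := by
      rw [← sum_neg_distrib]
      exact sum_le_sum fun i _ => by simpa using Int.le_self_sq (-n i)
    by_cases a0 : a = 0
    · exact Or.inl a0
    right
    have dp := h.dpos
    have nd := h.nd
    have p1 : 0 < a ^ 2 * d := by positivity
    generalize ∑ i, n i = σ at *
    generalize ∑ i, n i ^ 2 = Q at *
    have p2 : a ^ 2 * d = 46 ∨ a ^ 2 * d = 23 ∨ a ^ 2 * d = 24 ∨ a ^ 2 * d = 1 ∨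
        a ^ 2 * d = 4 := by
      generalize a ^ 2 * d = e at *
      interval_cases σ <;> omega
    have p3 : a ^ 2 * d ≤ 46 := by omega
    have p4 : a ≤ 6 := by nlinarith
    have p5 : -6 ≤ a := by nlinarith
    interval_cases a <;> omega
  by_cases hd : d = 1
  · subst hd
    obtain ⟨n, n1, n2, e1, e⟩ := coord x0 h.x0L 1 (by simpa using h.x0v)
    obtain ⟨k, hk⟩ := mem_ZZ.1 (h.ZZ h.x0L h.x0L)
    rw [hk] at e
    have e' : 23 * k = 23 * ∑ i, n i ^ 2 - (∑ i, n i) ^ 2 + 1 := by
      have : (23 * k : ℚ) = 23 * ∑ i, (n i : ℚ) ^ 2 - (∑ i, (n i : ℚ)) ^ 2 + 1 := by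
        push_cast at e; linarith
      exact_mod_cast this
    have h1 : (∑ i, n i) • y + (1 / 23 : ℚ) • v ∈ L := by
      convert sub_mem h.x0L (sum_mem fun i (_ : i ∈ univ) => L.smul_mem (n i) (yL i)) using 1
      nth_rewrite 1 [e1]
      simp only [smul_sub, sum_sub_distrib, ← sum_smul]
      push_cast
      abel
    have hσ : (∑ i, n i) ^ 2 = 1 := by
      generalize ∑ i, n i = σ at *
      generalize ∑ i, n i ^ 2 = Q at *
      interval_cases σ <;> omega
    have h2 : b ((∑ i, n i) • y + (1 / 23 : ℚ) • v) ((∑ i, n i) • y + (1 / 23 : ℚ) • v) = 1 := by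
      have a1 := yy 0
      have a2 := yv 0
      rw [h.tau.zero, one_smul] at a1 a2
      have : ((∑ i, n i : ℤ) : ℚ) ^ 2 = 1 := by exact_mod_cast hσ
      simp only [map_add, map_zsmul, map_smul, LinearMap.add_apply, LinearMap.smul_apply, a1, a2,
        h.pd.symm y v, h.nv, zsmul_eq_mul, smul_eq_mul, if_true]
      linear_combination (22 / 23 : ℚ) * this
    generalize (∑ i, n i) • y + (1 / 23 : ℚ) • v = x at h1 h2
    refine H.orth h.pd h.inv (x := x) (by rintro rfl; simp at h2) fun g => ?_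
    by_contra hn
    push Not at hn
    have a1 := h.pd.lt_of_ne (by rw [h.inv, h2]) h2 hn.1
    have a2 := h.pd.lt_of_ne_neg (by rw [h.inv, h2]) h2 hn.2.1
    obtain ⟨k, hk⟩ := mem_ZZ.1 (h.ZZ (h.stab g _ h1) h1)
    rw [hk] at a1 a2 hn
    have b1 : k < 1 := by exact_mod_cast a1
    have b2 : -1 < k := by exact_mod_cast a2
    exact hn.2.2 (by exact_mod_cast (by omega : k = 0))
  · have er : b r r = 2 := by simpa [h.tau.zero, pat] using hc 0
    obtain ⟨g, hg⟩ := H.exists_ne (G := G) (b := b) (v := v) (r := r)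
      (by rw [h.nv]; positivity) (by rintro rfl; simp at er)
    have hs := h.stab g r hr
    have es : b (g • r) (g • r) = 2 := by rw [h.inv, er]
    obtain ⟨a, ha⟩ := h.ex _ hs
    have d6 : d = 6 := by
      rcases cls _ hs es a ha with rfl | e | e
      · exact absurd (by simpa using ha) hg
      · exact absurd e hd
      · exact e.1
    refine h.simplex H d6 (fun s hs es => ?_) hs es hg
    obtain ⟨a, ha⟩ := h.ex _ hs
    rcases cls _ hs es a ha with rfl | e | ⟨-, rfl | rfl⟩
    · exact Or.inl (by simpa using ha)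
    · exact absurd e hd
    · rw [ha, d6]; norm_num
    · rw [ha, d6]; norm_num

theorem no_root (H : Irr G V) (h4 : ¬ (4 : ℤ) ∣ d) : ∀ r ∈ L, b r r ≠ 2 := by
  refine h.caseA H fun r hr hv e => ?_
  have : Fact (Nat.Prime 23) := ⟨by norm_num⟩
  have r0 : r ≠ 0 := by rintro rfl; simp at e
  choose c hc using fun i => mem_ZZ.1 (h.ZZ hr (h.stab (τ i) _ hr))
  obtain ⟨j, hj, hp⟩ := pattern c (by
      have := hc 0
      rw [h.tau.zero, one_smul, e] at this
      exact_mod_cast this.symm)
    (fun i => Int.cast_injective (α := ℚ) (by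
      rw [← hc, ← hc, ← h.tau.inv, ← h.inv.left, h.pd.symm]))
    (fun i hi => by
      have a1 := h.pd.lt_of_ne e (by rw [h.inv, e])
        (h.not_fixed hr (n := 2) (by norm_num) (by norm_num) e hi)
      have a2 := h.pd.lt_of_ne_neg e (by rw [h.inv, e]) (h.tau.ne_neg r0 i)
      rw [hc] at a1 a2
      have b1 : c i < 2 := by exact_mod_cast a1
      have b2 : -2 < c i := by exact_mod_cast a2
      omega)
    (by
      have := h.sum_b (x := r) (a := 0) (by simpa using hv)
      simp only [hc, Int.cast_zero, ne_eq, OfNat.ofNat_ne_zero, not_false_eq_true, zero_pow,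
        zero_mul] at this
      exact_mod_cast this)
    (fun x => by
      have := h.pd.nonneg (∑ i, x i • τ i • r)
      simp only [map_sum, LinearMap.sum_apply, map_zsmul, LinearMap.smul_apply, zsmul_eq_mul,
        h.inv.left, h.tau.inv, h.tau.smul_smul, hc, mul_sum] at this
      rw [sum_comm] at this
      have e1 : ∀ i, ∑ l, (x l : ℚ) * (x i * c (-i + l)) = ∑ k, (x i : ℚ) * x (i + k) * c k :=
        fun i => by
          rw [← Equiv.sum_comp (Equiv.addLeft i)]
          exact sum_congr rfl fun k _ => by simp; ring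
      simp only [e1] at this
      exact_mod_cast this)
  refine (h.twist hj).caseB H h4 hr hv fun i => ?_
  rw [hc, hp]
  congr 1
  simp only [pat, mul_eq_zero, hj, false_or, mul_eq_left₀ hj,
    show j * i = -j ↔ i = -1 from by rw [← mul_neg_one j, mul_right_inj' hj]]

end Core

end Cfsg.Lib.FT
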