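import Cfsg.Agent.Lib.FT.Min

/-!
# An element of order 23 acts trivially on the discriminant group
-/

set_option autoImplicit false
set_option linter.unusedSectionVars false

namespace Cfsg.Lib.FT

open Module LinearMap Finset

/-- the non-zero squares modulo 23 -/
def QR : Finset (ZMod 23) := {1, 2, 3, 4, 6, 8, 9, 12, 13, 16, 18}

theorem sum_split {A : Type*} [AddCommMonoid A] (F : ZMod 23 → A) :
    ∑ k, F k = F 0 + (∑ k ∈ QR, F k + ∑ k ∈ QR, F (-k)) := by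
  rw [show (univ : Finset (ZMod 23)) = insert 0 (QR ∪ QR.image Neg.neg) by decide,
    sum_insert (by decide), sum_union (by decide), sum_image fun a _ c _ e => neg_injective e]

theorem sum_QR_QR {A : Type*} [AddCommMonoid A] (F : ZMod 23 → A) :
    ∑ i ∈ QR, ∑ j ∈ QR, F (i + j) + ∑ i ∈ QR, F i + 6 • F 0 = 6 • ∑ k, F k := by
  have h1 : ∑ i ∈ QR, F i = ∑ k, (if k ∈ QR then 1 else 0) • F k := by simp
  have h2 : 6 • F 0 = ∑ k, (if k = 0 then 6 else 0) • F k := by simp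
  rw [← sum_product', ← sum_fiberwise' _ (fun p : ZMod 23 × ZMod 23 => p.1 + p.2), h1, h2,
    smul_sum, ← sum_add_distrib, ← sum_add_distrib]
  refine sum_congr rfl fun k _ => ?_
  rw [sum_const, ← add_smul, ← add_smul]
  congr 1
  revert k
  decide +kernel

variable {G : Type*} [Group G] [Finite G] {V : Type*} [AddCommGroup V] [Module ℚ V]
  [FiniteDimensional ℚ V] [DistribMulAction G V] [SMulCommClass G ℚ V]

/-- an injective homomorphism from the cyclic group of order 23 -/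
structure Tau (τ : ZMod 23 → G) : Prop where
  zero : τ 0 = 1
  add : ∀ i j, τ (i + j) = τ i * τ j
  ne : ∀ i, i ≠ 0 → τ i ≠ 1

theorem exists_tau (h : 23 ∣ Nat.card G) : ∃ τ : ZMod 23 → G, Tau τ := by
  have : Fact (Nat.Prime 23) := ⟨by norm_num⟩
  obtain ⟨g, hg⟩ := exists_prime_orderOf_dvd_card' 23 h
  refine ⟨fun i => g ^ i.val, by simp, fun i j => ?_, fun i hi e => hi ?_⟩
  · rw [ZMod.val_add, ← pow_add, ← pow_mod_orderOf g (i.val + j.val), hg]
  · have := orderOf_dvd_of_pow_eq_one e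
    rw [hg] at this
    exact (ZMod.val_eq_zero i).1 (Nat.eq_zero_of_dvd_of_lt this (ZMod.val_lt i))

/-- the norm map -/
def nrm (τ : ZMod 23 → G) (x : V) : V := ∑ i, τ i • x

/-- the Gauss period -/
def per (τ : ZMod 23 → G) (x : V) : V := ∑ i ∈ QR, τ i • x

theorem nrm_add (τ : ZMod 23 → G) (x y : V) : nrm τ (x + y) = nrm τ x + nrm τ y := by
  simp [nrm, sum_add_distrib]

theorem nrm_sub (τ : ZMod 23 → G) (x y : V) : nrm τ (x - y) = nrm τ x - nrm τ y := by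
  simp [nrm, smul_sub, sum_sub_distrib]

theorem nrm_zsmul (τ : ZMod 23 → G) (c : ℤ) (x : V) : nrm τ (c • x) = c • nrm τ x := by
  simp only [nrm, smul_sum, smul_comm c]

theorem per_add (τ : ZMod 23 → G) (x y : V) : per τ (x + y) = per τ x + per τ y := by
  simp [per, sum_add_distrib]

theorem per_sub (τ : ZMod 23 → G) (x y : V) : per τ (x - y) = per τ x - per τ y := by
  simp [per, smul_sub, sum_sub_distrib]

theorem per_zsmul (τ : ZMod 23 → G) (c : ℤ) (x : V) : per τ (c • x) = c • per τ x := by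
  simp only [per, smul_sum, smul_comm c]

namespace Tau

variable {τ : ZMod 23 → G} (h : Tau τ)
include h

theorem smul_smul (i j : ZMod 23) (x : V) : τ i • τ j • x = τ (i + j) • x := by
  rw [h.add, mul_smul]

theorem inv (i : ZMod 23) : (τ i)⁻¹ = τ (-i) :=
  inv_eq_of_mul_eq_one_right (by rw [← h.add, add_neg_cancel, h.zero])

theorem pow (i : ZMod 23) (n : ℕ) : τ i ^ n = τ (n * i) := by
  induction n with
  | zero => simp [h.zero]
  | succ n ih => rw [pow_succ, ih, ← h.add]; congr 1; push_cast; ring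

theorem pow23 (i : ZMod 23) : τ i ^ 23 = 1 := by
  rw [h.pow, show ((23 : ℕ) : ZMod 23) = 0 from rfl, zero_mul, h.zero]

theorem twist {j : ZMod 23} (hj : j ≠ 0) : Tau fun i => τ (j * i) :=
  have : Fact (Nat.Prime 23) := ⟨by norm_num⟩
  ⟨by simp [h.zero], fun i k => by rw [mul_add, h.add], fun i hi => h.ne _ (mul_ne_zero hj hi)⟩

theorem smul_nrm (j : ZMod 23) (x : V) : τ j • nrm τ x = nrm τ x := by
  simp only [nrm, smul_sum, h.smul_smul]
  exact Equiv.sum_comp (Equiv.addLeft j) fun i => τ i • x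

theorem nrm_smul (j : ZMod 23) (x : V) : nrm τ (τ j • x) = nrm τ x := by
  simp only [nrm, h.smul_smul]
  exact Equiv.sum_comp (Equiv.addRight j) fun i => τ i • x

theorem per_smul (j : ZMod 23) (x : V) : per τ (τ j • x) = τ j • per τ x := by
  simp only [per, smul_sum, h.smul_smul, add_comm]

theorem nrm_nrm (x : V) : nrm τ (nrm τ x) = (23 : ℤ) • nrm τ x := by
  rw [nrm]; simp only [h.smul_nrm]; simp [← natCast_zsmul]

theorem nrm_per (x : V) : nrm τ (per τ x) = (11 : ℤ) • nrm τ x := by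
  have : nrm τ (per τ x) = ∑ i ∈ QR, nrm τ (τ i • x) := by
    simp only [nrm, per, smul_sum]; exact sum_comm
  rw [this]
  simp only [h.nrm_smul, sum_const]
  rw [show QR.card = 11 by decide, ← natCast_zsmul]; rfl

theorem per_per (x : V) : per τ (per τ x) + per τ x + (6 : ℤ) • x = (6 : ℤ) • nrm τ x := by
  have := sum_QR_QR fun i => τ i • x
  simp only [h.zero, one_smul, ← natCast_zsmul] at this
  simp only [per, smul_sum, h.smul_smul]
  exact this

theorem b_nrm {b : LinearMap.BilinForm ℚ V} (inv : Inv G b) (x y : V) :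
    b (nrm τ x) y = b x (nrm τ y) := by
  simp only [nrm, map_sum, LinearMap.sum_apply, inv.left, h.inv]
  exact Equiv.sum_comp (Equiv.neg _) fun i => b x (τ i • y)

theorem b_per {b : LinearMap.BilinForm ℚ V} (inv : Inv G b) (x y : V) :
    b x (nrm τ y) = b x y + (b x (per τ y) + b (per τ x) y) := by
  simp only [nrm, per, map_sum, LinearMap.sum_apply, inv.left, h.inv]
  rw [sum_split fun i => b x (τ i • y), h.zero, one_smul]

theorem all_of_one {L : Submodule ℤ V} (stab : ∀ g : G, ∀ x ∈ L, g • x ∈ L) {x : V}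
    (hx : τ 1 • x - x ∈ L) (i : ZMod 23) : τ i • x - x ∈ L := by
  obtain ⟨n, rfl⟩ := ZMod.natCast_zmod_surjective i
  induction n with
  | zero => simp [h.zero]
  | succ n ih =>
    convert add_mem (stab (τ n) _ hx) ih using 1
    rw [smul_sub, h.smul_smul]; push_cast; abel

end Tau

theorem nrm_mem {τ : ZMod 23 → G} {L : Submodule ℤ V} (stab : ∀ g : G, ∀ x ∈ L, g • x ∈ L) {x : V}
    (hx : x ∈ L) : nrm τ x ∈ L := sum_mem fun _ _ => stab _ _ hx

theorem per_mem {τ : ZMod 23 → G} {L : Submodule ℤ V} (stab : ∀ g : G, ∀ x ∈ L, g • x ∈ L) {x : V}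
    (hx : x ∈ L) : per τ x ∈ L := sum_mem fun _ _ => stab _ _ hx

theorem nrm_sub_mem {τ : ZMod 23 → G} {L : Submodule ℤ V} {x : V}
    (hx : ∀ i, τ i • x - x ∈ L) : nrm τ x - (23 : ℤ) • x ∈ L := by
  have : nrm τ x - (23 : ℤ) • x = ∑ i, (τ i • x - x) := by
    rw [sum_sub_distrib, nrm]; simp [← natCast_zsmul]
  rw [this]
  exact sum_mem fun i _ => hx i

theorem fpf {E L : Submodule ℤ V} {g : G} (hg : g ^ 23 = 1) (hE : ∀ x ∈ E, g • x ∈ E)
    (hL : ∀ x ∈ L, g • x ∈ L) (h0 : ix L E ≠ 0) (hf : ∀ x ∈ E, g • x - x ∈ L → x ∈ L) :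
    ix L E ≡ 1 [MOD 23] := by
  classical
  have : Fact (Nat.Prime 23) := ⟨by norm_num⟩
  let K := L.toAddSubgroup.addSubgroupOf E.toAddSubgroup
  let φ : E.toAddSubgroup →+ E.toAddSubgroup :=
    AddMonoidHom.mk' (fun x => ⟨g • x.1, hE _ x.2⟩) fun x y => Subtype.ext (smul_add _ _ _)
  let f : Function.End (E.toAddSubgroup ⧸ K) :=
    fun c => QuotientAddGroup.map K K φ (fun x hx => hL _ hx) c
  have hfin : Finite (E.toAddSubgroup ⧸ K) := Nat.finite_of_card_ne_zero h0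
  have := Fintype.ofFinite (E.toAddSubgroup ⧸ K)
  have hp : ∀ (n : ℕ) (x : E.toAddSubgroup), ∃ y : E.toAddSubgroup, y.1 = g ^ n • x.1 ∧
      (f ^ n) (x : E.toAddSubgroup ⧸ K) = y := fun n x => by
    induction n with
    | zero => exact ⟨x, by simp, rfl⟩
    | succ n ih =>
      obtain ⟨y, h1, h2⟩ := ih
      refine ⟨φ y, by rw [pow_succ', mul_smul, ← h1]; rfl, ?_⟩
      rw [pow_succ']
      show f ((f ^ n) x) = _
      rw [h2]; rfl
  have h1 := Equiv.Perm.card_fixedPoints_modEq (f := f) (p := 23) (n := 1) (by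
    funext c
    induction c using QuotientAddGroup.induction_on with
    | H x =>
      obtain ⟨y, h1, h2⟩ := hp 23 x
      rw [hg, one_smul] at h1
      rw [pow_one, h2, Subtype.ext h1]; rfl)
  have h2 : Fintype.card (Function.fixedPoints f) = 1 := by
    refine Fintype.card_eq_one_iff.2 ⟨⟨0, map_zero (QuotientAddGroup.map K K φ (fun x hx => hL _ hx))⟩, ?_⟩
    rintro ⟨c, hc⟩
    induction c using QuotientAddGroup.induction_on with
    | H x =>
      refine Subtype.ext ((QuotientAddGroup.eq_zero_iff _).2 (hf _ x.2 ?_))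
      have : ((φ x : E.toAddSubgroup) : E.toAddSubgroup ⧸ K) = x := hc
      exact QuotientAddGroup.eq_iff_sub_mem.1 this
  rw [← Nat.card_eq_fintype_card, ← Nat.card_eq_fintype_card] at h1
  rw [← Nat.card_eq_fintype_card] at h2
  rw [h2] at h1
  exact h1

namespace Mn

variable (H : Irr G V) {b : LinearMap.BilinForm ℚ V} {L : Submodule ℤ V} (h : Mn G b L)
include H h

theorem exists_ndvd {q : ℕ} (hq : q.Prime) (h2 : q ≠ 2) :
    ∃ u ∈ L, ∃ k : ℤ, b u u = k ∧ ¬ (q : ℤ) ∣ k := by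
  by_contra hc
  push Not at hc
  have hq0 : (q : ℚ) ≠ 0 := Nat.cast_ne_zero.2 hq.ne_zero
  have h1 : L ≤ sc q (Lq b L q) := fun u hu => by
    have e : (q : ℤ) • (q : ℚ)⁻¹ • u = u := by
      rw [← Int.cast_smul_eq_zsmul ℚ, smul_smul]; simp [hq0]
    refine ⟨(q : ℚ)⁻¹ • u, ⟨mem_dual.2 fun w hw => ?_, by rwa [e]⟩, e⟩
    obtain ⟨k1, e1⟩ := mem_ZZ.1 (h.ZZ hu hu)
    obtain ⟨k2, e2⟩ := mem_ZZ.1 (h.ZZ hw hw)
    obtain ⟨k3, e3⟩ := mem_ZZ.1 (h.ZZ (add_mem hu hw) (add_mem hu hw))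
    obtain ⟨l1, rfl⟩ := hc u hu k1 e1
    obtain ⟨l2, rfl⟩ := hc w hw k2 e2
    obtain ⟨l3, rfl⟩ := hc _ (add_mem hu hw) k3 e3
    rw [h.pd.norm_add] at e3
    refine ZZ_of_coprime (Nat.isCoprime_iff_coprime.2 ((Nat.coprime_primes hq Nat.prime_two).2 h2))
      ?_ (mem_ZZ.2 ⟨l3 - l1 - l2, ?_⟩)
    · simpa [← mul_assoc, hq0] using h.ZZ hu hw
    · simp only [map_smul, LinearMap.smul_apply, smul_eq_mul]
      push_cast at e1 e2 e3 ⊢
      field_simp
      linarith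
  obtain ⟨a, c⟩ := h.half hq
  rw [ix_eq_one.2 h1] at a c
  rw [one_mul, H.dim] at c
  have := Nat.one_lt_pow (n := 23) (by norm_num) hq.one_lt
  omega

theorem design_mem {u x : V} (hu : u ∈ L) (hx : x ∈ dual b L) :
    ((Nat.card G : ℚ) * b u u / 23) • x ∈ L := by
  have := Fintype.ofFinite G
  rw [← H.design h.inv h.pd]
  refine sum_mem fun g _ => ?_
  obtain ⟨k, hk⟩ := mem_ZZ.1 (mem_dual.1 hx _ (h.stab g _ hu))
  rw [hk, Int.cast_smul_eq_zsmul]
  exact L.smul_mem _ (h.stab g _ hu)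

theorem dvd_card : 23 ∣ Nat.card G := by
  have := H.nontrivial
  have := h.lat
  obtain ⟨u, hu, k, hk, hn⟩ := h.exists_ndvd H (q := 23) (by norm_num) (by norm_num)
  obtain ⟨x, hx, y, hy, e⟩ := h.pd.exists_one L
  obtain ⟨l, hl⟩ := mem_ZZ.1 (mem_dual.1 hy _ (h.design_mem H hu (h.int hx)))
  rw [map_smul, e, hk, smul_eq_mul, mul_one] at hl
  have : (Nat.card G : ℤ) * k = 23 * l := by
    have : (Nat.card G : ℚ) * k = 23 * l := by linarith
    exact_mod_cast this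
  exact_mod_cast (prime23.dvd_or_dvd ⟨l, this⟩).resolve_right hn

theorem Lq_big {q : ℕ} (hq : q.Prime) (h23 : 23 ≤ q) : Lq b L q ≤ L := fun x hx => by
  obtain ⟨u, hu, k, hk, hn⟩ := h.exists_ndvd H hq (by omega)
  obtain ⟨n, hG⟩ := h.dvd_card H
  have h1 := h.design_mem H hu hx.1
  have e : ((Nat.card G : ℚ) * b u u / 23) = ((n * k : ℤ) : ℚ) := by
    rw [hG, hk]; push_cast; ring
  rw [e, Int.cast_smul_eq_zsmul] at h1
  have hp : Prime (q : ℤ) := Nat.prime_iff_prime_int.1 hq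
  refine mem_of_coprime (hp.irreducible.coprime_iff_not_dvd.2 fun hd => ?_) hx.2 h1
  refine (hp.dvd_or_dvd hd).elim (fun hd => ?_) hn
  have hd' : q ∣ n := by exact_mod_cast hd
  have := H.prime_le hq (hG ▸ Dvd.dvd.mul_left hd' 23)
  obtain rfl : q = 23 := by omega
  exact H.not_sq_dvd (hG ▸ (pow_two 23 ▸ Nat.mul_dvd_mul_left 23 hd'))

variable {τ : ZMod 23 → G} (T : Tau τ)
include T

theorem ix_cases {q : ℕ} (hq : q.Prime) (h23 : q < 23) {E : Submodule ℤ V} (h1 : L ≤ E)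
    (h2 : E ≤ Lq b L q) (hE : ∀ x ∈ E, τ 1 • x ∈ E) (hN : ∀ x ∈ E, nrm τ x ∈ L) :
    E ≤ L ∨ (ix L E = q ^ 11 ∧ (q = 2 ∨ q = 3 ∨ q = 13)) := by
  obtain ⟨a, c⟩ := h.half hq
  rw [H.dim] at c
  have hd : ix L E ∣ q ^ 23 := by
    rw [← c, ← ix_mul h1 h2]; exact Dvd.dvd.mul_left (dvd_mul_right _ _) _
  obtain ⟨k, -, hk⟩ := (Nat.dvd_prime_pow hq).1 hd
  have hpos : ix L (Lq b L q) ≠ 0 := fun e => by
    rw [e, mul_zero] at c; exact pow_ne_zero _ hq.ne_zero c.symm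
  have hle : ix L E ≤ ix L (Lq b L q) :=
    Nat.le_of_dvd (Nat.pos_of_ne_zero hpos) ⟨_, (ix_mul h1 h2).symm⟩
  have hk11 : k ≤ 11 := by
    have : q ^ (k + k) ≤ q ^ 23 := by
      rw [pow_add, ← hk, ← c]; exact Nat.mul_le_mul (hle.trans a) hle
    have := (Nat.pow_le_pow_iff_right hq.one_lt).1 this
    omega
  have hm := fpf (T.pow23 1) hE (h.stab _) (by rw [hk]; exact pow_ne_zero _ hq.ne_zero)
    fun x hx hx' => by
      have := sub_mem (hN x hx) (nrm_sub_mem (T.all_of_one h.stab hx'))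
      rw [sub_sub_cancel] at this
      exact mem_of_coprime (Nat.isCoprime_iff_coprime.2 ((Nat.coprime_primes hq
        (by norm_num : Nat.Prime 23)).2 h23.ne)) (h2 hx).2 this
  rw [hk] at hm
  have key : ∀ q < 23, q.Prime → ∀ k ≤ 11, q ^ k ≡ 1 [MOD 23] →
      k = 0 ∨ (k = 11 ∧ (q = 2 ∨ q = 3 ∨ q = 13)) := by
    intro q h1 h2
    interval_cases q <;> first | decide | norm_num at h2
  rcases key q h23 hq k hk11 hm with rfl | ⟨rfl, e⟩
  · exact Or.inl (ix_eq_one.1 hk)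
  · exact Or.inr ⟨hk, e⟩

end Mn

/-- the part of the discriminant group killed by the norm -/
def E0 (b : LinearMap.BilinForm ℚ V) (L : Submodule ℤ V) (q : ℕ) (τ : ZMod 23 → G) :
    Submodule ℤ V where
  carrier := {x | x ∈ Lq b L q ∧ nrm τ x ∈ L}
  zero_mem' := ⟨zero_mem _, by simp [nrm]⟩
  add_mem' := fun hx hy => ⟨add_mem hx.1 hy.1, by rw [nrm_add]; exact add_mem hx.2 hy.2⟩
  smul_mem' := fun c _ hx => ⟨Submodule.smul_mem _ _ hx.1, by
    rw [nrm_zsmul]; exact L.smul_mem _ hx.2⟩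

/-- an eigenspace of the Gauss period -/
def E1 (b : LinearMap.BilinForm ℚ V) (L : Submodule ℤ V) (q : ℕ) (τ : ZMod 23 → G) (t : ℤ) :
    Submodule ℤ V where
  carrier := {x | x ∈ E0 b L q τ ∧ per τ x - t • x ∈ L}
  zero_mem' := ⟨zero_mem _, by simp [per]⟩
  add_mem' := fun hx hy => ⟨add_mem hx.1 hy.1, by
    convert add_mem hx.2 hy.2 using 1; rw [per_add, smul_add]; abel⟩
  smul_mem' := fun c _ hx => ⟨Submodule.smul_mem _ _ hx.1, by
    rw [per_zsmul, smul_comm t, ← smul_sub]; exact L.smul_mem _ hx.2⟩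

namespace Mn

variable (H : Irr G V) {b : LinearMap.BilinForm ℚ V} {L : Submodule ℤ V} (h : Mn G b L)
  {τ : ZMod 23 → G} (T : Tau τ)
include H h T

theorem iso {q : ℕ} (hq : q.Prime) (h23 : q < 23) {t : ℤ} (ht : (q : ℤ) ∣ t ^ 2 + t + 6)
    (ht' : IsCoprime (2 * t + 1) q) (h0 : E1 b L q τ (-1 - t) ≤ L) : E0 b L q τ ≤ L := by
  obtain ⟨c, hc⟩ := ht
  have c23 : IsCoprime (q : ℤ) 23 := Nat.isCoprime_iff_coprime.2 ((Nat.coprime_primes hq
    (by norm_num : Nat.Prime 23)).2 h23.ne)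
  have h1 : ∀ x ∈ E0 b L q τ, per τ x - t • x ∈ L := fun x hx => h0 ⟨⟨sub_mem
    (per_mem (h.Lq_stab q) hx.1) (Submodule.smul_mem _ _ hx.1), by
      rw [nrm_sub, T.nrm_per, nrm_zsmul, ← sub_smul]; exact L.smul_mem _ hx.2⟩, by
      convert sub_mem (L.smul_mem 6 hx.2) (L.smul_mem c hx.1.2) using 1
      rw [← T.per_per, per_sub, per_zsmul, smul_smul, mul_comm, ← hc]
      module⟩
  have hqb : ∀ x ∈ Lq b L q, ∀ y ∈ Lq b L q, (q : ℤ) * b x y ∈ ZZ := fun x hx y hy => by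
    simpa only [map_zsmul, zsmul_eq_mul] using mem_dual.1 hx.1 _ hy.2
  have h2 : ∀ x ∈ E0 b L q τ, ∀ y ∈ E0 b L q τ, b x y ∈ ZZ := fun x hx y hy => by
    refine ZZ_of_coprime ht' ?_ (hqb x hx.1 y hy.1)
    have a := mem_dual.1 hx.1.1 _ hy.2
    have a1 := mem_dual.1 hx.1.1 _ (h1 y hy)
    have a2 := mem_dual.1 hy.1.1 _ (h1 x hx)
    convert sub_mem (sub_mem a a1) a2 using 1
    rw [T.b_per h.inv]
    simp only [map_sub, map_zsmul, zsmul_eq_mul, h.pd.symm y, LinearMap.sub_apply,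
      LinearMap.smul_apply]
    push_cast; ring
  intro x hx
  refine h.Lq_inf hq ⟨hx.1, mem_dual.2 fun y hy => ZZ_of_coprime c23 (hqb x hx.1 y hy) ?_⟩
  have a := h2 x hx ((23 : ℤ) • y - nrm τ y) ⟨sub_mem (Submodule.smul_mem _ _ hy)
    (nrm_mem (h.Lq_stab q) hy), by rw [nrm_sub, nrm_zsmul, T.nrm_nrm, sub_self]; exact zero_mem _⟩
  have a1 := mem_dual.1 hy.1 _ hx.2
  convert add_mem a a1 using 1
  rw [h.pd.symm y, T.b_nrm h.inv]
  simp

theorem E0_le {q : ℕ} (hq : q.Prime) (h23 : q < 23) : E0 b L q τ ≤ L := by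
  have hL0 : L ≤ E0 b L q τ := fun x hx => ⟨h.le_Lq q hx, nrm_mem h.stab hx⟩
  have hs0 : ∀ x ∈ E0 b L q τ, τ 1 • x ∈ E0 b L q τ := fun x hx =>
    ⟨h.Lq_stab q _ _ hx.1, by rw [T.nrm_smul]; exact hx.2⟩
  rcases h.ix_cases H T hq h23 hL0 (fun x hx => hx.1) hs0 (fun x hx => hx.2) with e | ⟨-, e⟩
  · exact e
  obtain ⟨t, ht, ht'⟩ : ∃ t : ℤ, (q : ℤ) ∣ t ^ 2 + t + 6 ∧ IsCoprime (2 * t + 1) q := by
    rcases e with rfl | rfl | rfl
    · exact ⟨0, by norm_num, by norm_num⟩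
    · exact ⟨0, by norm_num, by norm_num⟩
    · exact ⟨4, by norm_num, by norm_num⟩
  have hL1 : ∀ t : ℤ, L ≤ E1 b L q τ t := fun t x hx =>
    ⟨hL0 hx, sub_mem (per_mem h.stab hx) (L.smul_mem _ hx)⟩
  have hc := fun t : ℤ => h.ix_cases H T hq h23 (hL1 t) (fun x hx => hx.1.1)
    (fun x hx => ⟨hs0 x hx.1, by
      rw [T.per_smul, ← smul_comm, ← smul_sub]; exact h.stab _ _ hx.2⟩) fun x hx => hx.1.2
  rcases hc (-1 - t) with e1 | ⟨e1, -⟩
  · exact h.iso H T hq h23 ht ht' e1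
  rcases hc t with e2 | ⟨e2, -⟩
  · refine h.iso H T hq h23 (t := -1 - t) (by convert ht using 1; ring)
      (by rw [show 2 * (-1 - t) + 1 = -(2 * t + 1) by ring]; exact ht'.neg_left) (by rwa [show -1 - (-1 - t) = t by ring])
  exfalso
  have h1 := ix_sup (hL1 (-1 - t)) (hL1 t) fun x hx => mem_of_coprime ht' (by
    convert sub_mem hx.1.2 hx.2.2 using 1; module) hx.1.1.1.2
  have h2 : E1 b L q τ (-1 - t) ⊔ E1 b L q τ t ≤ Lq b L q :=
    sup_le (fun x hx => hx.1.1) fun x hx => hx.1.1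
  obtain ⟨a, c⟩ := h.half hq
  rw [H.dim] at c
  have hpos : ix L (Lq b L q) ≠ 0 := fun e => by
    rw [e, mul_zero] at c; exact pow_ne_zero _ hq.ne_zero c.symm
  have hle := Nat.le_of_dvd (Nat.pos_of_ne_zero hpos)
    ⟨_, (ix_mul ((hL1 t).trans le_sup_right) h2).symm⟩
  rw [h1, e1, e2, ← pow_add] at hle
  have : q ^ (22 + 22) ≤ q ^ 23 := by
    rw [pow_add, ← c]; exact Nat.mul_le_mul (hle.trans a) hle
  have := (Nat.pow_le_pow_iff_right hq.one_lt).1 this
  omega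

theorem triv {y : V} (hy : y ∈ dual b L) (i : ZMod 23) : τ i • y - y ∈ L := by
  refine h.dual_le (P := L.comap (((act V (τ i)) - 1).restrictScalars ℤ)) (fun q hq x hx => ?_) hy
  show τ i • x - x ∈ L
  rcases lt_or_ge q 23 with e | e
  · refine h.E0_le H T hq e ⟨sub_mem (h.Lq_stab q _ _ hx) hx, ?_⟩
    rw [nrm_sub, T.nrm_smul, sub_self]; exact zero_mem _
  · have := h.Lq_big H hq e hx
    exact sub_mem (h.stab _ _ this) this

end Mn

end Cfsg.Lib.FT
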